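import Cfsg.Agent.Lib.Amalgam.S3Iso
import Cfsg.Agent.Lib.Loc.ParChar

/-! Arcs (non-backtracking walks) in the coset graph of an `(S₃,S₃)`-amalgam and transitivity on arcs. -/

set_option autoImplicit false
set_option linter.unusedSectionVars false
set_option linter.style.haveILetI false

namespace Cfsg.Lib.Amalgam

open Cfsg Subgroup Transfer Cfsg.Lib.Core Cfsg.Lib.BG Cfsg.Lib.Loc
open scoped commutatorElement

variable {X : Type*} [Group X] {H K T A R : Subgroup X} {x y g t : X}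
variable {M₁ M₂ : Subgroup X} {δ μ ν ε γ α β : CosetVertex M₁ M₂} {w w' : ℤ → CosetVertex M₁ M₂} {i j : ℤ}

local notation "G[" δ "]" => MulAction.stabilizer X δ
local notation "Q[" δ "]" => vertexQ 2 δ
local notation "Γ" => cosetGraph M₁ M₂

theorem gs_card_le (h : ∀ a ∈ A, ∀ b ∈ A, a ∉ H → b ∉ H → a⁻¹ * b ∈ H) :
    Nat.card A ≤ 2 * Nat.card ↥(A ⊓ H) := by
  have : H.relIndex A ∣ 2 := index_dvd_two_iff.2 (by
    by_cases e : ∃ a ∈ A, a ∉ H
    · obtain ⟨a, ha, ha'⟩ := e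
      exact ⟨⟨a, ha⟩, fun b => or_iff_not_imp_right.2 fun hb => by
        have := h _ (inv_mem b.2) _ ha (fun e => hb (inv_mem_iff.1 e)) ha'
        rwa [inv_inv] at this⟩
    · exact ⟨1, fun b => Or.inr (by_contra fun hb => e ⟨b, b.2, hb⟩)⟩)
  rw [← BG.card_mul_relIndex (inf_le_left : A ⊓ H ≤ A), inf_relIndex_left, mul_comm]
  exact Nat.mul_le_mul_right _ (Nat.le_of_dvd two_pos this)

theorem gs_exists_oz [Finite T] (hT : IsPGroup 2 T) (hR : R ≤ T) (hn : T ≤ 𝐍(R)) (h1 : R ≠ ⊥) :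
    ∃ z ∈ R, z ≠ 1 ∧ z ∈ omegaOneCenter 2 T := by
  obtain ⟨z, hz, hz1, hz2⟩ := exists_mem_oz_of_nml (G := T) (p := 2) (T := ⊤) (R := R.subgroupOf T)
    (hT.to_subgroup ⊤) ⟨le_top, fun g _ => mem_normalizer_iff.2 fun a => mem_normalizer_iff.1 (hn g.2) a⟩
    (fun e => h1 (by rw [← subOf_map hR, e, Subgroup.map_bot]))
  obtain ⟨⟨-, b⟩, c⟩ := mem_oz.1 hz2
  exact ⟨z, hz, fun e => hz1 (Subtype.ext e), mem_oz.2 ⟨⟨z.2, mem_cent.2 fun y hy =>
    congrArg Subtype.val (mem_cent.1 b ⟨y, hy⟩ trivial)⟩, congrArg Subtype.val c⟩⟩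

theorem gs_norm_of_inv (hx : x * x = 1) (h : ∀ a ∈ K, x * a * x⁻¹ ∈ K) : x ∈ 𝐍(K) :=
  mem_normalizer_iff.2 fun a => ⟨h a, fun e => by
    have := h _ e
    rwa [show x * (x * a * x⁻¹) * x⁻¹ = x * x * a * (x * x)⁻¹ by group, hx, one_mul, inv_one, mul_one] at this⟩

theorem adj_of_G (hg : g ∈ G[δ]) (ha : (Γ).Adj δ μ) : (Γ).Adj δ (g • μ) := by
  simpa [mem_G.1 hg] using adj_smul g ha

theorem smul_ne_of_G (hg : g ∈ G[δ]) (hne : μ ≠ δ) : g • μ ≠ δ := fun e =>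
  hne (MulAction.injective g (e.trans (mem_G.1 hg).symm))

theorem conj_mem_Q_of (hg : g ∈ G[δ]) (hx : x ∈ Q[δ]) : g * x * g⁻¹ ∈ Q[δ] := conj_mem_of_norm (norm_Q 2 δ hg) hx

theorem conj_mem_Q_iff (hg : g ∈ G[δ]) : g * x * g⁻¹ ∈ Q[δ] ↔ x ∈ Q[δ] := by
  nth_rw 1 [← mem_G.1 hg]; exact conj_mem_Q

/-- A non-backtracking walk, infinite in both directions. -/
def Arc (w : ℤ → CosetVertex M₁ M₂) : Prop := ∀ i, (Γ).Adj (w i) (w (i + 1)) ∧ w (i + 2) ≠ w i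

namespace Arc

theorem adj (hw : Arc w) (i j : ℤ) (e : j = i + 1 := by omega) : (Γ).Adj (w i) (w j) := e ▸ (hw i).1

theorem adj' (hw : Arc w) (i j : ℤ) (e : i = j + 1 := by omega) : (Γ).Adj (w i) (w j) := (hw.adj j i e).symm

theorem ne (hw : Arc w) (i j : ℤ) (e : j = i + 2 := by omega) : w i ≠ w j := e ▸ (hw i).2.symm

theorem ne' (hw : Arc w) (i j : ℤ) (e : i = j + 2 := by omega) : w i ≠ w j := (hw.ne j i e).symm

theorem smul (hw : Arc w) (g : X) : Arc fun k => g • w k := fun i =>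
  ⟨adj_smul g (hw i).1, fun e => (hw i).2 (MulAction.injective g e)⟩

theorem shift (hw : Arc w) (c : ℤ) : Arc fun k => w (k + c) := fun i => ⟨hw.adj _ _, hw.ne' _ _⟩

theorem rev (hw : Arc w) (c : ℤ) : Arc fun k => w (c - k) := fun i => ⟨hw.adj' _ _, hw.ne _ _⟩

theorem splice (hw : Arc w) (hw' : Arc w') (j : ℤ) (e1 : w j = w' j) (e2 : w (j + 1) = w' (j + 1)) :
    ∃ v, Arc v ∧ (∀ k ≤ j + 1, v k = w k) ∧ ∀ k, j ≤ k → v k = w' k := by
  have h1 : ∀ k ≤ j + 1, (if k ≤ j then w k else w' k) = w k := fun k hk => by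
    split_ifs with e
    · rfl
    · rw [show k = j + 1 by omega, e2]
  have h2 : ∀ k, j ≤ k → (if k ≤ j then w k else w' k) = w' k := fun k hk => by
    split_ifs with e
    · rw [show k = j by omega, e1]
    · rfl
  refine ⟨fun k => if k ≤ j then w k else w' k, fun i => ?_, h1, h2⟩
  by_cases e : i < j
  · simp only [h1 i (by omega), h1 (i + 1) (by omega), h1 (i + 2) (by omega)]
    exact hw i
  · simp only [h2 i (by omega), h2 (i + 1) (by omega), h2 (i + 2) (by omega)]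
    exact hw' i

end Arc

/-- `g` fixes the vertices `w i, …, w j`. -/
def Fix (g : X) (w : ℤ → CosetVertex M₁ M₂) (i j : ℤ) : Prop := ∀ k, i ≤ k → k ≤ j → g ∈ G[w k]

/-- The stabiliser of the arc `w i, …, w j` moves the further neighbours of `w j`. -/
def Opn (w : ℤ → CosetVertex M₁ M₂) (i j : ℤ) : Prop := ∃ g, Fix g w i j ∧ g ∉ Q[w j]

/-- Some arc of length `n` ending in `δ` is open. -/
def HO (n : ℤ) (δ : CosetVertex M₁ M₂) : Prop := ∃ w j, Arc w ∧ w j = δ ∧ Opn w (j - n) j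

/-- Transitivity on the arcs of length `n` starting in a given orbit. -/
def Tr (M₁ M₂ : Subgroup X) (n : ℤ) : Prop := ∀ (w w' : ℤ → CosetVertex M₁ M₂) (i i' : ℤ), Arc w → Arc w' →
  (∃ g : X, g • w i = w' i') → ∃ g : X, ∀ k, 0 ≤ k → k ≤ n → g • w (i + k) = w' (i' + k)

theorem HO.smul {n : ℤ} (h : HO n δ) (g : X) : HO n (g • δ) := by
  obtain ⟨w, j, hw, rfl, t, h1, h2⟩ := h
  exact ⟨_, j, hw.smul g, rfl, g * t * g⁻¹, fun k a b => conj_mem_G.2 (h1 k a b), fun e => h2 (conj_mem_Q.1 e)⟩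

theorem HO.mono {n m : ℤ} (h : HO n δ) (hm : m ≤ n) : HO m δ := by
  obtain ⟨w, j, hw, rfl, t, h1, h2⟩ := h
  exact ⟨w, j, hw, rfl, t, fun k a b => h1 k (by omega) b, h2⟩

theorem Arc.orbit (hw : Arc w) (hw' : Arc w') {i i' : ℤ} (h : ∃ g : X, g • w i = w' i') (k : ℤ) :
    ∃ g : X, g • w (i + k) = w' (i' + k) := by
  have key : ∀ {a a' b b' : CosetVertex M₁ M₂}, (Γ).Adj a b → (Γ).Adj a' b' → (∃ g : X, g • a = a') →
      ∃ g : X, g • b = b' := by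
    rintro a a' b b' h1 h2 ⟨g, rfl⟩
    obtain ⟨k, -, e⟩ := neighbours_transitive (adj_smul g h1) h2
    exact ⟨k * g, by rw [mul_smul, e]⟩
  induction k using Int.induction_on with
  | zero => simpa using h
  | succ n ih => exact key (hw.adj _ _) (hw'.adj _ _) ih
  | pred n ih => exact key (hw.adj' _ _) (hw'.adj' _ _) ih

namespace S3Am

variable (h : S3Am M₁ M₂)
include h

theorem swap (ha : (Γ).Adj δ μ) (hb : (Γ).Adj δ ν) (hc : (Γ).Adj δ ε) (h1 : ν ≠ μ) (h2 : ε ≠ μ) (h3 : ε ≠ ν)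
    (hx : x ∈ G[δ]) (hx' : x ∈ G[μ]) (hq : x ∉ Q[δ]) : x • ν = ε :=
  (((h.three ha hb h1.symm hx hx' hq hc).resolve_left h2).resolve_left h3).symm

theorem third (ha : (Γ).Adj δ μ) (hb : (Γ).Adj δ ν) (hne : μ ≠ ν) : ∃ ε, (Γ).Adj δ ε ∧ ε ≠ μ ∧ ε ≠ ν := by
  obtain ⟨x, hx, hq⟩ := h.exists_out ha
  exact ⟨x • ν, adj_of_G hx.1 hb, smul_ne_of_G hx.2 hne.symm, h.not_mem_G ha hb hne hx.1 hx.2 hq⟩

theorem three' (ha : (Γ).Adj δ μ) (hb : (Γ).Adj δ ν) (hc : (Γ).Adj δ ε) (h1 : ν ≠ μ) (h2 : ε ≠ μ) (h3 : ε ≠ ν)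
    (hd : (Γ).Adj δ γ) : γ = μ ∨ γ = ν ∨ γ = ε := by
  obtain ⟨x, hx, hq⟩ := h.exists_out ha
  rw [← h.swap ha hb hc h1 h2 h3 hx.1 hx.2 hq]
  exact h.three ha hb h1.symm hx.1 hx.2 hq hd

theorem fin_edge (δ μ : CosetVertex M₁ M₂) : Finite ↥(G[δ] ⊓ G[μ]) :=
  haveI := (h.s3 δ).fin
  Finite.of_injective _ (inclusion_injective (inf_le_left : G[δ] ⊓ G[μ] ≤ G[δ]))

theorem card_step (ha : (Γ).Adj δ μ) (h1 : A ≤ G[δ]) (h2 : A ≤ G[μ]) : Nat.card A ≤ 2 * Nat.card ↥(A ⊓ Q[δ]) :=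
  gs_card_le fun _ a _ b => h.mul_mem ha ⟨h1 a, h2 a⟩ ⟨h1 b, h2 b⟩

theorem repl (hw : Arc w) (j : ℤ) (ha : (Γ).Adj (w j) ν) (hne : ν ≠ w (j - 1)) :
    ∃ v, Arc v ∧ (∀ k ≤ j, v k = w k) ∧ v (j + 1) = ν := by
  by_cases e : ν = w (j + 1)
  · exact ⟨w, hw, fun _ _ => rfl, e.symm⟩
  obtain ⟨x, hx, hq⟩ := h.exists_out (hw.adj' j (j - 1))
  obtain ⟨v, hv, h1, h2⟩ := hw.splice (hw.smul x) (j - 1) (mem_G.1 hx.2).symm (by
    rw [sub_add_cancel]; exact (mem_G.1 hx.1).symm)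
  exact ⟨v, hv, fun k hk => h1 k (by omega), (h2 _ (by omega)).trans
    (h.swap (hw.adj' j (j - 1)) (hw.adj j (j + 1)) ha (hw.ne' _ _) hne e hx.1 hx.2 hq)⟩

theorem repl' (hw : Arc w) (j : ℤ) (ha : (Γ).Adj (w j) ν) (hne : ν ≠ w (j + 1)) :
    ∃ v, Arc v ∧ (∀ k, j ≤ k → v k = w k) ∧ v (j - 1) = ν := by
  obtain ⟨v, hv, h1, h2⟩ := h.repl (hw.rev 0) (-j) (by simpa using ha) (by
    rwa [show 0 - (-j - 1) = j + 1 by omega])
  refine ⟨_, hv.rev 0, fun k hk => ?_, ?_⟩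
  · simpa using h1 (0 - k) (by omega)
  · simpa only [show 0 - (j - 1) = -j + 1 by omega] using h2

theorem exists_arc (ha : (Γ).Adj δ μ) : ∃ w, Arc w ∧ w 0 = δ ∧ w 1 = μ := by
  obtain ⟨a, ha1, ha2⟩ := (h.s3 δ).exists_not_mem (h.syl ha)
  obtain ⟨b, hb1, hb2⟩ := (h.s3 μ).exists_not_mem (h.syl ha.symm)
  have h1 : (b * a) • δ = b • δ := by rw [mul_smul, mem_G.1 ha1]
  have h2 : (Γ).Adj μ ((b * a) • δ) := h1 ▸ adj_of_G hb1 ha.symm
  have h3 : (b * a) • δ ≠ δ := fun e => hb2 ⟨hb1, mem_G.2 (h1.symm.trans e)⟩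
  have h4 : (b * a) • μ ≠ μ := fun e => ha2 ⟨ha1, mem_G.2 (MulAction.injective b
    (((mul_smul _ _ _).symm.trans e).trans (mem_G.1 hb1).symm))⟩
  generalize b * a = c at h2 h3 h4
  refine ⟨fun k => if k % 2 = 0 then c ^ (k / 2) • δ else c ^ (k / 2) • μ, fun i => ?_, by simp, by simp⟩
  have e2 : (i + 2) / 2 = i / 2 + 1 := by omega
  by_cases e : i % 2 = 0
  · simp only [if_pos e, if_neg (show ¬ (i + 1) % 2 = 0 by omega), if_pos (show (i + 2) % 2 = 0 by omega), e2,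
      show (i + 1) / 2 = i / 2 by omega, zpow_add_one, mul_smul]
    exact ⟨adj_smul _ ha, fun e => h3 (MulAction.injective _ e)⟩
  · simp only [if_neg e, if_pos (show (i + 1) % 2 = 0 by omega), if_neg (show ¬ (i + 2) % 2 = 0 by omega), e2,
      show (i + 1) / 2 = i / 2 + 1 by omega, zpow_add_one, mul_smul]
    exact ⟨adj_smul _ h2, fun e => h4 (MulAction.injective _ e)⟩

theorem exists_arc₂ (ha : (Γ).Adj δ μ) (hb : (Γ).Adj μ ν) (hne : ν ≠ δ) :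
    ∃ w, Arc w ∧ w 0 = δ ∧ w 1 = μ ∧ w 2 = ν := by
  obtain ⟨w, hw, rfl, rfl⟩ := h.exists_arc ha
  obtain ⟨v, hv, h1, h2⟩ := h.repl hw 1 hb hne
  exact ⟨v, hv, h1 _ (by omega), h1 _ le_rfl, h2⟩

theorem dist_le (hw : Arc w) (hij : i ≤ j) : ((Γ).dist (w i) (w j) : ℤ) ≤ j - i := by
  induction j, hij using Int.le_induction with
  | base => simp
  | succ n _ ih =>
    have := (connected h.pair.1).dist_triangle (u := w i) (v := w n) (w := w (n + 1))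
    rw [SimpleGraph.dist_eq_one_iff_adj.2 (hw.adj n (n + 1))] at this
    omega

theorem opn_of_tr {n : ℤ} (ht : Tr M₁ M₂ n) (hn : 0 ≤ n) (ho : ∀ δ : CosetVertex M₁ M₂, HO n δ) (hw : Arc w)
    (j : ℤ) : Opn w (j - n) j := by
  obtain ⟨v, a, hv, e, t, h1, h2⟩ := ho (w j)
  obtain ⟨g, hg⟩ := ht v w (a - n) (j - n) hv hw (hv.orbit hw ⟨1, by rw [one_smul, e]⟩ (-n))
  refine ⟨g * t * g⁻¹, fun k c d => ?_, fun e => h2 ?_⟩
  · rw [show k = j - n + (k - (j - n)) by omega, ← hg _ (by omega) (by omega)]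
    exact conj_mem_G.2 (h1 _ (by omega) (by omega))
  · rw [show j = j - n + n by omega, ← hg n hn le_rfl, conj_mem_Q, sub_add_cancel] at e
    exact e

theorem tr_of {n : ℤ} (ho : ∀ δ : CosetVertex M₁ M₂, HO n δ) (m : ℤ) (h1 : 1 ≤ m) (h2 : m ≤ n + 1) :
    Tr M₁ M₂ m := by
  induction m, h1 using Int.le_induction with
  | base =>
    rintro w w' i i' hw hw' ⟨g, hg⟩
    obtain ⟨k, hk, e⟩ := neighbours_transitive (hg ▸ adj_smul g (hw.adj i (i + 1))) (hw'.adj i' (i' + 1))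
    refine ⟨k * g, fun c a b => ?_⟩
    rcases (show c = 0 ∨ c = 1 by omega) with rfl | rfl
    · rw [add_zero, add_zero, mul_smul, hg, mem_G.1 hk]
    · rw [mul_smul, e]
  | succ m hm ih =>
    intro w w' i i' hw hw' hg
    obtain ⟨g, hg⟩ := ih (by omega) w w' i i' hw hw' hg
    by_cases e : g • w (i + (m + 1)) = w' (i' + (m + 1))
    · exact ⟨g, fun k a b => if c : k = m + 1 then c ▸ e else hg k a (by omega)⟩
    obtain ⟨t, ht, hq⟩ := h.opn_of_tr (ih (by omega)) (by omega) (fun δ => (ho δ).mono (by omega)) hw' (i' + m)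
    refine ⟨t * g, fun k a b => ?_⟩
    rw [mul_smul]
    by_cases c : k = m + 1
    · subst c
      refine h.swap (hw'.adj' (i' + m) (i' + (m - 1))) (hg m (by omega) le_rfl ▸ adj_smul g (hw.adj _ _))
        (hw'.adj _ _) ?_ (hw'.ne' _ _) (Ne.symm e) (ht _ (by omega) le_rfl) (ht _ (by omega) (by omega)) hq
      rw [← hg (m - 1) (by omega) (by omega)]
      exact fun e => hw.ne' _ _ (by omega) (MulAction.injective g e)
    · rw [hg k a (by omega)]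
      exact mem_G.1 (ht _ (by omega) (by omega))

/-- If open arcs of length `n` end in both kinds of vertices, all arcs of length at most `n` are open. -/
theorem opn_of {n : ℤ} (ho : ∀ δ : CosetVertex M₁ M₂, HO n δ) (hw : Arc w) (i j : ℤ) (h1 : i < j)
    (h2 : j - i ≤ n) : Opn w i j := by
  have := h.opn_of_tr (h.tr_of ho (j - i) (by omega) (by omega)) (by omega) (fun δ => (ho δ).mono h2) hw j
  rwa [sub_sub_cancel] at this

end S3Am

theorem S3Ch.exists_arc_dist (h : S3Ch M₁ M₂) (n : ℕ) (δ μ : CosetVertex M₁ M₂) (hd : (Γ).dist δ μ = n) :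
    ∃ w, Arc w ∧ w 0 = δ ∧ w n = μ := by
  induction n generalizing μ with
  | zero =>
    obtain ⟨ν, a⟩ := exists_adj δ
    obtain ⟨w, hw, e, -⟩ := h.exists_arc a
    exact ⟨w, hw, e, e.trans ((connected h.pair.1).dist_eq_zero_iff.1 hd)⟩
  | succ n ih =>
    rcases n.eq_zero_or_pos with rfl | hn
    · exact h.exists_arc (SimpleGraph.dist_eq_one_iff_adj.1 hd)
    obtain ⟨ν, a, d⟩ := h.step hd
    obtain ⟨w, hw, rfl, rfl⟩ := ih ν d
    obtain ⟨v, hv, h1, h2⟩ := h.repl hw n a.symm fun e => by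
      have := h.dist_le hw (show (0 : ℤ) ≤ n - 1 by omega)
      rw [← e, hd] at this
      omega
    exact ⟨v, hv, h1 _ (by omega), h2⟩

end Cfsg.Lib.Amalgam
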