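import Cfsg.Agent.Lib.Amalgam.GOdd

/-! Point-line `(S₃,S₃)`-amalgams with odd `b`: `|V_p| = 8` and `b = 3`. -/

set_option autoImplicit false
set_option linter.unusedSectionVars false
set_option linter.style.haveILetI false

namespace Cfsg.Lib.Amalgam

open Cfsg Subgroup Transfer Cfsg.Lib.Core Cfsg.Lib.BG Cfsg.Lib.Loc
open scoped commutatorElement

variable {X : Type*} [Group X] {H K T A R : Subgroup X} {x y g t r r' : X}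
variable {M₁ M₂ : Subgroup X} {δ μ ν ε γ α α' β p q u v l m m' n : CosetVertex M₁ M₂}
  {w w' : ℤ → CosetVertex M₁ M₂} {i j : ℤ}

local notation "G[" δ "]" => MulAction.stabilizer X δ
local notation "Q[" δ "]" => vertexQ 2 δ
local notation "Z[" δ "]" => vertexZ 2 δ
local notation "Γ" => cosetGraph M₁ M₂
local notation "𝔟" => criticalDistance 2 M₁ M₂

/-- `|V_p| = 8`. -/
def V8 (M₁ M₂ : Subgroup X) : Prop := ∀ (p l : CosetVertex M₁ M₂) (r : X), Pt p → (cosetGraph M₁ M₂).Adj p l →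
  RR p l r → r ∈ vertexZ 2 l

namespace S3Od

variable (h : S3Od M₁ M₂)
include h

theorem not_mem_of_not_V8 (h8 : ¬ V8 M₁ M₂) (hp : Pt p) (hl : (Γ).Adj p l) (hr : RR p l r) : r ∉ Z[l] :=
  fun e => h8 fun q m s hq hm hs => by
    obtain ⟨g, rfl, rfl⟩ := h.orb_edge hp hq hl hm
    rcases h.RR_eq hq hm (h.RR_smul hp hr g) hs with rfl | rfl
    exacts [h.conj_mem_Z g e, mul_mem (h.z_ln hq hm.symm) (h.conj_mem_Z g e)]

theorem exists_one (h8 : ¬ V8 M₁ M₂) (hp : Pt p) (hn : (Γ).Adj p n) :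
    ∃ t ∈ Q[p], t ∉ Q[n] ∧ ∀ l, (Γ).Adj p l → l ≠ n → t ∈ Q[l] := by
  suffices ∃ q m : CosetVertex M₁ M₂, Pt q ∧ (Γ).Adj q m ∧
      ∃ t ∈ Q[q], t ∉ Q[m] ∧ ∀ l, (Γ).Adj q l → l ≠ m → t ∈ Q[l] by
    obtain ⟨q, m, hq, hm, t, t1, t2, t3⟩ := this
    obtain ⟨g, rfl, rfl⟩ := h.orb_edge hq hp hm hn
    refine ⟨_, conj_mem_Q.2 t1, fun e => t2 (conj_mem_Q.1 e), fun l a b => ?_⟩
    rw [← smul_inv_smul g l, conj_mem_Q]
    exact t3 _ (by simpa using adj_smul g⁻¹ a) fun e => b (by rw [← e, smul_inv_smul])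
  by_contra hn
  push Not at hn
  obtain ⟨w, hw, h1, h2⟩ := h.exists_cr
  have := h.odd
  have := h.b3
  have hq := h.pta hw h1 (𝔟 + 1)
  have hl := hw.adj' (𝔟 + 1) 𝔟
  have hd := hw.adj (𝔟 + 1) (𝔟 + 2)
  have hu := hw.adj (𝔟 + 2) (𝔟 + 3)
  have hx := hw.adj' 𝔟 (𝔟 - 1)
  have n1 := hw.ne' (𝔟 + 2) 𝔟
  have n2 := hw.ne' (𝔟 + 3) (𝔟 + 1)
  have n3 := hw.ne (𝔟 - 1) (𝔟 + 1)
  have a0 := h.z_ln h1 (hw.adj' 1 0)
  have a1 : zz (w 0) ∈ Q[w 𝔟] := h.ZQa hw _ _ (by omega) a0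
  have a2 := h.z_sq (w 0)
  generalize zz (w 0) = a, w (𝔟 + 1) = q, w 𝔟 = l, w (𝔟 + 2) = d, w (𝔟 + 3) = u, w (𝔟 - 1) = x at *
  have a3 := h.Q_le hl.symm a1
  have hd' := adj_of_G a3 hd
  have hu' := adj_smul a hu
  have n4 := smul_ne_of_G (Q_le_G 2 _ a1) n1
  have n5 : a • d ≠ d := h.not_mem_G hl hd n1.symm a3 (Q_le_G 2 _ a1) h2
  have n6 := smul_ne_of_G a3 n2
  have e1 : a • a • u = u := by rw [← mul_smul, a2, one_smul]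
  have w1 : ∀ {l d d' : CosetVertex M₁ M₂}, (Γ).Adj q l → (Γ).Adj q d → (Γ).Adj q d' → d ≠ l → d' ≠ l → d' ≠ d →
      ∀ t ∈ Q[q], t ∈ Q[d] → t ∈ Q[d'] → t ∈ Q[l] := fun a b c e1 e2 e3 t t1 t2 t3 => by_contra fun t4 => by
    obtain ⟨m, m1, m2, m3⟩ := hn _ _ hq a t t1 t4
    rcases h.three' a b c e1 e2 e3 m1 with rfl | rfl | rfl
    exacts [m2 rfl, m3 t2, m3 t3]
  have hr : RR q l (zz u * zz (a • u)) := ⟨_, _, _, _, hd, hd', n1, n4, n5, hu, hu', n2, n6, rfl⟩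
  have c1 := h.zz_comm hq hl hl hx hl.symm
  have c2 := h.zz_comm hq hd hd hu hd.symm
  have c3 := h.zz_comm hq hl hd hx hu
  have c4 := h.zz_comm hq hl hd' hx hu'
  have c5 := h.zz_comm hq hd hd' hu hu'
  have key : ∀ t ∈ Q[q], t * (zz x * (zz u * zz (a • u))) * t⁻¹ = zz x * (zz u * zz (a • u)) := fun t ht => by
    have f1 := fun {m v : CosetVertex M₁ M₂} (a : (Γ).Adj q m) (b : (Γ).Adj m v) (c : v ≠ q) =>
      h.conj_z hq a.symm b c (h.Q_le a ht) (Q_le_G 2 _ ht)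
    have f2 := fun {m v : CosetVertex M₁ M₂} (a : (Γ).Adj q m) (b : (Γ).Adj m v) =>
      h.conj_z' (g := t) (h.pt2 a b hq) b
    rw [show ∀ a b c : X, t * (a * (b * c)) * t⁻¹ = t * a * t⁻¹ * (t * b * t⁻¹ * (t * c * t⁻¹)) from
      fun a b c => by group]
    by_cases t1 : t ∈ Q[l]
    · rw [f2 hl hx t1]
      by_cases t2 : t ∈ Q[d]
      · rw [f2 hd hu t2, f2 hd' hu' (w1 hd' hl hd n4.symm n5.symm n1 t ht t1 t2)]
      · rw [f1 hd hu n2 t2, f1 hd' hu' n6 fun t3 => t2 (w1 hd hl hd' n1.symm n5 n4 t ht t1 t3), ← c2,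
          mul_assoc (zz u), ← mul_assoc (zz q), h.z_sq, one_mul]
    rw [f1 hl hx n3 t1, ← c1, mul_assoc]
    by_cases t2 : t ∈ Q[d]
    · rw [f2 hd hu t2, f1 hd' hu' n6 fun t3 => t1 (w1 hl hd hd' n1 n4 n5 t ht t2 t3), ← mul_assoc (zz u), c2,
        mul_assoc (zz q), ← mul_assoc (zz q), h.z_sq, one_mul]
    by_cases t3 : t ∈ Q[a • d]
    · rw [f1 hd hu n2 t2, f2 hd' hu' t3, mul_assoc (zz q), ← mul_assoc (zz q), h.z_sq, one_mul]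
    obtain ⟨s, s1, s2, s3⟩ := h.pu_t hq hd hl n1
    have m1 := fun {m : CosetVertex M₁ M₂} (a : (Γ).Adj q m) => h.mul_mem a.symm
      ⟨h.Q_le a s2, Q_le_G 2 _ s2⟩ ⟨h.Q_le a ht, Q_le_G 2 _ ht⟩
    have := w1 hl hd hd' n1 n4 n5 _ (mul_mem (inv_mem s2) ht) (m1 hd s3 t2)
      (m1 hd' (fun c => s3 (w1 hd hl hd' n1.symm n5 n4 s s2 s1 c)) t3)
    exact (t1 (by simpa using mul_mem s1 this)).elim
  have k2 : a * (zz x * (zz u * zz (a • u))) * a⁻¹ = zz x * (zz u * zz (a • u)) := by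
    rw [show ∀ t b c : X, a * (t * (b * c)) * a⁻¹ = a * t * a⁻¹ * (a * b * a⁻¹ * (a * c * a⁻¹)) from
      fun a b c => by group, h.conj_z' (h.pt2 hl hx hq) hx a1, ← h.z_smul (h.pt2 hd hu hq),
      ← h.z_smul (h.pt2 hd' hu' hq), e1, c5]
  have x1 := h.z_ln (h.pt2 hl hx hq) hx
  have k3 : zz x * (zz u * zz (a • u)) ∈ Q[q] := mul_mem (h.lt_adj h.two_le hl.symm x1)
    (h.RR_mem hq hr fun m a => h.lt_adj h.two_le a.symm)
  have k4 : zz x * (zz u * zz (a • u)) ∈ Z[l] := h.oz_le_Z' hl (mem_oz.2 ⟨⟨⟨Q_le_G 2 _ k3, h.Q_le hl k3⟩,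
    le_cent1_iff.1 (h.edge_le hl (fun t ht => mem_cent1.2 (mul_inv_eq_iff_eq_mul.1 (key t ht)))
      ⟨a3, Q_le_G 2 _ a1⟩ (mem_cent1.2 (mul_inv_eq_iff_eq_mul.1 k2)) h2)⟩, by
      rw [pow_two, ← mul_eq_one_iff_eq_inv.2 (h.RR_inv hq hr).symm]
      nth_rw 1 [← mul_assoc (zz x), c3, mul_assoc (zz u), c4]
      rw [← mul_assoc (zz u), mul_assoc _ (zz x), ← mul_assoc (zz x), h.z_sq, one_mul]⟩)
  exact h.not_mem_of_not_V8 h8 hq hl hr (by simpa using mul_mem (inv_mem x1) k4)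

theorem k16 (h8 : ¬ V8 M₁ M₂) (hu : Pt u) (hm : (Γ).Adj u m) (hr : RR u m r) (hx : (Γ).Adj m p) (n1 : p ≠ u)
    (hm' : (Γ).Adj p m') (n2 : m' ≠ m) : ∃ t ∈ Q[m], t ∈ Q[m'] ∧ t * r * t⁻¹ = zz u * r := by
  by_contra hn
  push Not at hn
  have hp := h.pt2 hm hx hu
  have h0 : ∀ t ∈ Q[m], t ∈ Q[m'] → t ∈ 𝐂[r] := fun t a b => mem_cent1.2 (mul_inv_eq_iff_eq_mul.1
    ((h.RR_conj hu hm hr (h.Q_le hm.symm a) (Q_le_G 2 _ a)).resolve_right (hn t a b)))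
  have inv : ∀ g ∈ G[u], g ∈ G[m] → ∀ t ∈ Q[m], g * t * g⁻¹ ∈ 𝐂[r] → t ∈ 𝐂[r] := fun g a b t c d => by
    have e := mem_cent1.1 d
    have e1 : t * (g⁻¹ * r * g⁻¹⁻¹) = g⁻¹ * r * g⁻¹⁻¹ * t := by
      calc _ = g⁻¹ * (g * t * g⁻¹ * r) * g := by group
        _ = _ := by rw [e]; group
    rcases h.RR_conj hu hm hr (inv_mem a) (inv_mem b) with c' | c' <;> rw [c'] at e1
    · exact mem_cent1.2 e1
    · rw [← mul_assoc, ← h.z_comm hu (h.Q_le hm.symm c), mul_assoc, mul_assoc] at e1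
      exact mem_cent1.2 (mul_left_cancel e1)
  obtain ⟨m'', a1, a2, a3⟩ := h.third hx.symm hm' n2.symm
  have h1 : ∀ t ∈ Q[m], t ∈ Q[m''] → t ∈ 𝐂[r] := fun t a b => by
    obtain ⟨s, s1, s2⟩ := h.exists_Q_out hx.symm (h.Q_ne m)
    have := h.swap hx.symm a1 hm' a2 n2 a3.symm (h.Q_le hx s1) (Q_le_G 2 _ s1) s2
    exact inv s (h.Q_le hm.symm s1) (Q_le_G 2 _ s1) t a (h0 _ (conj_mem_Q_of (Q_le_G 2 _ s1) a)
      (this ▸ conj_mem_Q.2 b))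
  have h2 : ∀ g ∈ Q[m], g ∈ Q[p] → g ∈ 𝐂[r] := fun g a b => by
    by_cases c : g ∈ Q[m'']
    · exact h1 g a c
    obtain ⟨t, t1, t2, t3⟩ := h.exists_one h8 hp a1
    have t4 := t3 _ hx.symm a2.symm
    simpa using mul_mem (h0 t t4 (t3 _ hm' a3.symm)) (h1 _ (mul_mem (inv_mem t4) a) (h.mul_mem a1.symm
      ⟨h.Q_le a1 t1, Q_le_G 2 _ t1⟩ ⟨h.Q_le a1 b, Q_le_G 2 _ b⟩ t2 c))
  obtain ⟨y, b1, b2, b3⟩ := h.third hm.symm hx n1.symm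
  have h3 : ∀ t ∈ Q[m], t ∈ Q[y] → t ∈ 𝐂[r] := fun t a b => by
    obtain ⟨k, k1, k2⟩ := h.exists_out hm.symm
    have := h.swap hm.symm b1 hx b2 n1 b3.symm k1.1 k1.2 k2
    exact inv k k1.2 k1.1 t a (h2 _ (conj_mem_Q_of k1.1 a) (this ▸ conj_mem_Q.2 b))
  obtain ⟨n, c1, c2⟩ := h.exists_ne hm
  obtain ⟨n', c3, c4, c5⟩ := h.third hm c1 c2.symm
  obtain ⟨t, t1, t2, t3⟩ := h.exists_one h8 hu c1
  have t4 := t3 _ hm c2.symm
  have t5 : t ∉ 𝐂[r] := fun e => h.z_ne u (by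
    have := h.RR_move hu hm hr c3 c1 c4 c2 c5.symm t1 (t3 _ c3 c5) t2
    rw [mem_cent1.1 e, mul_inv_cancel_right] at this
    exact mul_eq_right.1 this.symm)
  obtain ⟨k, k1, k2⟩ := h.exists_out b1
  have k3 := h.swap b1 hm.symm hx b2.symm b3.symm n1 k1.1 k1.2 k2
  have k4 := conj_mem_Q_of k1.1 t4
  have k5 : k * t * k⁻¹ ∉ Q[y] := fun e => t5 (h3 t t4 ((conj_mem_Q_iff k1.2).1 e))
  have := h3 _ (mul_mem (inv_mem k4) t4) (h.mul_mem b1.symm ⟨h.Q_le b1 k4, Q_le_G 2 _ k4⟩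
    ⟨h.Q_le b1 t4, Q_le_G 2 _ t4⟩ k5 fun e => t5 (h3 t t4 e))
  exact t5 (by simpa only [mul_inv_cancel_left] using mul_mem (h2 _ k4 (k3 ▸ conj_mem_Q.2 t1)) this)

theorem v8 : V8 M₁ M₂ := by_contra fun h8 => by
  obtain ⟨w, hw, h1, h2⟩ := h.exists_cr
  have := h.odd
  have := h.b3
  by_cases hb : 𝔟 = 3
  · have r1 := h.RR_arc hw 0 _ h1 h2
    have r2 := h.RR_arc' hw 0 _ h1 h2
    rw [show (𝔟 : ℤ) + 1 - 1 = 0 + 3 by omega] at r1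
    have hp := h.pta hw h1 (0 + 2)
    have hl := hw.adj (0 + 2) (0 + 3)
    have hl' := hw.adj (0 + 3) (𝔟 + 1)
    obtain ⟨n', c3, c4, c5⟩ := h.third hl (hw.adj' _ 1) (hw.ne' _ _)
    obtain ⟨t, t1, t2, t3⟩ := h.exists_one h8 hp (hw.adj' _ 1)
    have t4 := t3 _ hl (hw.ne' _ _)
    have e := h.RR_move hp hl r2 c3 (hw.adj' _ 1) c4 (hw.ne _ _) c5.symm t1 (t3 _ c3 c5) t2
    rcases h.RR_conj (h.pta hw h1 _) hl'.symm r1 (h.Q_le hl' t4) (Q_le_G 2 _ t4) with c | c <;> rw [e] at c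
    · exact h.z_ne _ (mul_eq_right.1 c)
    · exact h.z_ne_z hp hl.symm hl' (hw.ne _ _) (mul_right_cancel c)
  obtain ⟨v, hv, v1, v2⟩ := h.ext hw 0 _ h1 h2
  have p0 := h.pta hv (v1 2 (by omega) ▸ h.pta hw h1 2) 0
  have h3 := h.cr_congr hw hv 0 _ h1 h2 fun k a _ => v1 k (by omega)
  have r1 := h.RR_arc hv 0 _ p0 h3
  have r2 := h.RR_arc' hv 0 _ p0 h3
  have f1 := h.z_ln (h.pta hv p0 (0 - 2)) (hv.adj' (-1) _)
  have f2 := h.Z_comm f1 (h.RR_mem (h.pta hv p0 _) r2 fun m a => h.lt' (by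
    have := h.dist_arc hv (0 + 2) (-1)
    have := h.dist_adj a (v (-1))
    rw [SimpleGraph.dist_comm]
    omega))
  have hq := h.pta hv p0 (𝔟 + 1)
  have hx := h.pta hv p0 (𝔟 + 1 - 2)
  have a1 := hv.adj' (𝔟 + 1) (𝔟 + 1 - 1)
  have a2 := hv.adj' (𝔟 + 1 - 1) (𝔟 + 1 - 2)
  have f3 : zz (v (0 - 2)) ∈ G[v (𝔟 + 1 - 2)] := h.ZGa hv _ _ (by omega) f1
  have f4 := h.not_mem_G (hv.adj' _ (𝔟 - 2)) a2.symm (hv.ne _ _) f3 (h.ZGa hv _ _ (by omega) f1) v2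
  have r3 := h.RR_smul hq r1 (zz (v (0 - 2)))
  rw [f2, mul_inv_cancel_right] at r3
  have a3 := adj_smul (zz (v (0 - 2))) a1
  have a4 := adj_of_G f3 a2.symm
  obtain ⟨t, t1, t2, t3⟩ := h.k16 h8 hq a1 r1 a2 (hv.ne _ _) a4 f4
  rcases h.RR_conj (h.Pt_smul _ hq) a3 r3 (h.Q_le a3.symm t2) (Q_le_G 2 _ t2) with c | c <;> rw [t3] at c
  · exact h.z_ne _ (mul_eq_right.1 c)
  · exact h.z_not_mem hq a1.symm a2 (hv.ne' _ _) (h.pu hx a2.symm a4 (Ne.symm f4) (h.z_ln hq a1.symm)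
      (mul_right_cancel c ▸ h.z_ln (h.Pt_smul _ hq) a3.symm))

theorem five_comm (hb : 𝔟 = 5) (hw : Arc w) (h1 : Pt (w 0)) :
    zz (w 0) * zz (w 8) * (zz (w 0))⁻¹ * (zz (w 8))⁻¹ = zz (w 4) := by
  have h2 := h.all_cr (by rw [hb]; exact h.tr_four) hw 0 6 h1
  have r1 := h.RR_arc hw 0 6 h1 h2
  have r2 := h.RR_arc' hw 0 6 h1 h2
  simp only [Int.reduceAdd, Int.reduceSub] at r1 r2
  have hq := h.pta hw h1 6
  refine (h.eq_z (h.pta hw h1 4) (h.pu (h.pta hw h1 4) (hw.adj' 4 3) (hw.adj 4 5) (hw.ne _ _)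
    (h.v8 _ _ _ (h.pta hw h1 _) (hw.adj _ _) r2) (h.v8 _ _ _ hq (hw.adj' _ _) r1))).resolve_left fun e => ?_
  exact h.RR_not_mem hq r1 (by rw [e]; exact one_mem _)

theorem five_pow (hb : 𝔟 = 5) (hw : Arc w) (h1 : Pt (w 0)) : (zz (w 10) * zz (w 0)) ^ 4 = zz (w 6) := by
  have c := h.all_cr (by rw [hb]; exact h.tr_four) hw 0 6 h1
  have a := h.z_ln h1 (hw.adj' 1 0)
  have g1 : zz (w 0) ∈ G[w 6] := h.ZGa hw _ _ (by omega) a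
  have g2 := h.not_mem_G (hw.adj' 6 5) (hw.adj 6 7) (hw.ne _ _) g1 (h.ZGa hw _ _ (by omega) a) c
  have e : w (10 - 4) = w 6 := congrArg w (by omega)
  obtain ⟨v, hv, v1, v2⟩ := h.repl (hw.rev 10) 4 (ν := zz (w 0) • w 7) (e ▸ adj_of_G g1 (hw.adj 6 7))
    (by simpa only [Int.reduceSub, mem_G] using g2)
  obtain ⟨u, hu, u1, u2⟩ := hv.splice ((hw.shift 2).smul (zz (w 0))) 4
    (by simpa only [Int.reduceAdd, v1 4 le_rfl, e] using (mem_G.1 g1).symm) (by simpa only [Int.reduceAdd] using v2)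
  have e0 : u 0 = w 10 := by simpa only [Int.reduceSub] using (u1 0 (by omega)).trans (v1 0 (by omega))
  have e4 : u 4 = w 6 := by simpa only [Int.reduceSub] using (u1 4 (by omega)).trans (v1 4 (by omega))
  have e8 : u 8 = zz (w 0) • w 10 := by simpa only [Int.reduceAdd] using u2 8 (by omega)
  have := h.five_comm hb hu (e0 ▸ h.pta hw h1 10)
  rw [e0, e4, e8, h.z_smul (h.pta hw h1 10)] at this
  rw [← this]
  simp only [mul_inv_rev, h.z_inv, pow_succ, pow_zero, one_mul, mul_assoc]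

theorem b_ne_five : 𝔟 ≠ 5 := fun hb => by
  obtain ⟨w, hw, h1, -⟩ := h.exists_cr
  have e1 := h.five_pow hb hw h1
  have e2 := h.five_pow hb (hw.rev 10) (by simpa only [Int.reduceSub] using h.pta hw h1 10)
  simp only [Int.reduceSub] at e2
  refine h.z_ne_z (h.pta hw h1 4) (hw.adj' 5 4) (hw.adj 5 6) (hw.ne _ _) ?_
  rw [← e2, ← h.z_inv (w 6), ← e1, ← inv_pow, mul_inv_rev, h.z_inv, h.z_inv]

theorem b_eq_three : 𝔟 = 3 := by_contra fun hb => by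
  have := h.odd
  have := h.b3
  have := h.b_ne_five
  obtain ⟨w, hw, h1, h2⟩ := h.exists_cr
  obtain ⟨v, hv, v1, v2⟩ := h.ext hw 0 _ h1 h2
  have p0 := h.pta hv (v1 2 (by omega) ▸ h.pta hw h1 2) 0
  obtain ⟨u, hu, u1, u2⟩ := h.ext hv (0 - 2) _ (h.pta hv p0 _) v2
  have q0 : Pt (u 0) := u1 0 (by omega) ▸ p0
  have c0 := h.cr_congr hw hu 0 _ h1 h2 fun k a _ => (u1 k (by omega)).trans (v1 k (by omega))
  have c1 := h.cr_congr hv hu (0 - 2) _ (h.pta hv p0 _) v2 fun k a _ => u1 k (by omega)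
  have n0 := h.RR_not_mem (h.pta hu q0 _) (h.RR_arc hu 0 _ q0 c0)
  have n1 := h.RR_not_mem (h.pta hu q0 _) (h.RR_arc hu _ _ (h.pta hu q0 _) c1)
  have r1 := h.RR_arc hu _ _ (h.pta hu q0 _) u2
  have r2 := h.RR_arc' hu _ _ (h.pta hu q0 _) u2
  have n2 := h.RR_not_mem (h.pta hu q0 _) r2
  have m1 := h.v8 _ _ _ (h.pta hu q0 _) (hu.adj' _ _) r1
  have m2 := h.v8 _ _ _ (h.pta hu q0 _) (hu.adj _ _) r2
  have m3 := h.ZQa hu _ (𝔟 + 2) (by omega) m1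
  have z1 := h.z_ln (h.pta hu q0 (𝔟 + 1 + 2)) (hu.adj (𝔟 + 2) _)
  have z2 := h.z_ln (h.pta hu q0 (𝔟 + 1 - 2 + 2)) (hu.adj' (𝔟 + 2) _)
  rw [show (0 : ℤ) - 2 - 2 + 2 = 0 - 2 from rfl] at n2
  rcases h.Z_line (h.pta hu q0 (0 - 2)) (hu.adj' _ _) (hu.adj _ 0) (hu.ne _ _) m2 with e | e | e | e <;>
    rw [e] at n2 m3
  · exact n2 (one_mem _)
  · exact n2 (h.z_mem _)
  · exact n0 (by rw [← h.Z_comm z1 m3]; simp)
  · have z3 := h.Z_comm (h.z_ln (h.pta hu q0 (𝔟 + 1 - 2 + 2)) (hu.adj 𝔟 _))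
      (h.ZQa hu 1 𝔟 (by omega) (h.z_ln q0 (hu.adj' 1 0)))
    have z4 := h.Z_comm z2 m3
    rw [mul_assoc, ← z3, ← mul_assoc, ← mul_assoc] at z4
    exact n1 (by rw [← mul_right_cancel z4]; simp)

end S3Od

end Cfsg.Lib.Amalgam
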