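import Cfsg.Agent.Lib.Amalgam.GPt

/-! Point-line `(S₃,S₃)`-amalgams: two lines meet in their common point, `|Z_p| = 2`, and the case of even `b`. -/

set_option autoImplicit false
set_option linter.unusedSectionVars false
set_option linter.style.haveILetI false

namespace Cfsg.Lib.Amalgam

open Cfsg Subgroup Transfer Cfsg.Lib.Core Cfsg.Lib.BG Cfsg.Lib.Loc
open scoped commutatorElement

variable {X : Type*} [Group X] {H K T A R : Subgroup X} {x y z g t : X}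
variable {M₁ M₂ : Subgroup X} {δ μ ν ε γ α α' β p q u v : CosetVertex M₁ M₂} {w w' : ℤ → CosetVertex M₁ M₂}
  {i j : ℤ}

local notation "G[" δ "]" => MulAction.stabilizer X δ
local notation "Q[" δ "]" => vertexQ 2 δ
local notation "Z[" δ "]" => vertexZ 2 δ
local notation "Γ" => cosetGraph M₁ M₂
local notation "𝔟" => criticalDistance 2 M₁ M₂

/-- The intersection of the `Q_μ` over the neighbours `μ` of `δ`. -/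
def D2 (δ : CosetVertex M₁ M₂) : Subgroup X := ⨅ μ, ⨅ _ : (Γ).Adj δ μ, Q[μ]

/-- The intersection of the `D2 μ` over the neighbours `μ` of `δ`. -/
def D3 (δ : CosetVertex M₁ M₂) : Subgroup X := ⨅ μ, ⨅ _ : (Γ).Adj δ μ, D2 μ

theorem mem_D2 : x ∈ D2 δ ↔ ∀ μ, (Γ).Adj δ μ → x ∈ Q[μ] := by simp [D2, mem_iInf]

theorem mem_D3 : x ∈ D3 δ ↔ ∀ μ, (Γ).Adj δ μ → x ∈ D2 μ := by simp [D3, mem_iInf]

theorem conj_mem_D2 (g : X) (hx : x ∈ D2 δ) : g * x * g⁻¹ ∈ D2 (g • δ) := mem_D2.2 fun μ a => by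
  rw [← smul_inv_smul g μ, conj_mem_Q]
  exact mem_D2.1 hx _ (by simpa using adj_smul g⁻¹ a)

theorem conj_mem_D3 (g : X) (hx : x ∈ D3 δ) : g * x * g⁻¹ ∈ D3 (g • δ) := mem_D3.2 fun μ a => by
  rw [← smul_inv_smul g μ]
  exact conj_mem_D2 g (mem_D3.1 hx _ (by simpa using adj_smul g⁻¹ a))

theorem norm_D2 (δ : CosetVertex M₁ M₂) : G[δ] ≤ 𝐍(D2 δ) := norm_of_conj_le fun g hg => by
  rintro _ ⟨y, hy, rfl⟩
  simpa [mem_G.1 hg] using conj_mem_D2 g hy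

theorem norm_D3 (δ : CosetVertex M₁ M₂) : G[δ] ≤ 𝐍(D3 δ) := norm_of_conj_le fun g hg => by
  rintro _ ⟨y, hy, rfl⟩
  simpa [mem_G.1 hg] using conj_mem_D3 g hy

theorem S3Am.mem_D2_of (h : S3Am M₁ M₂) (ha : (Γ).Adj δ μ) (hb : (Γ).Adj δ ν) (hc : (Γ).Adj δ ε) (h1 : ν ≠ μ)
    (h2 : ε ≠ μ) (h3 : ε ≠ ν) (a : x ∈ Q[μ]) (b : x ∈ Q[ν]) (c : x ∈ Q[ε]) : x ∈ D2 δ := mem_D2.2 fun _ d => by
  rcases h.three' ha hb hc h1 h2 h3 d with rfl | rfl | rfl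
  exacts [a, b, c]

theorem S3Am.mem_D3_of (h : S3Am M₁ M₂) (ha : (Γ).Adj δ μ) (hb : (Γ).Adj δ ν) (hc : (Γ).Adj δ ε) (h1 : ν ≠ μ)
    (h2 : ε ≠ μ) (h3 : ε ≠ ν) (a : x ∈ D2 μ) (b : x ∈ D2 ν) (c : x ∈ D2 ε) : x ∈ D3 δ := mem_D3.2 fun _ d => by
  rcases h.three' ha hb hc h1 h2 h3 d with rfl | rfl | rfl
  exacts [a, b, c]

/-- `|G_{δ,μ} : D2 δ| ≤ 2⁴`. -/
theorem S3Am.card_D2 (h : S3Am M₁ M₂) (ha : (Γ).Adj δ μ) (hA : A ≤ Q[μ]) :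
    Nat.card A ≤ 8 * Nat.card ↥(A ⊓ D2 δ) := by
  obtain ⟨ν, hb, h1⟩ := h.exists_ne ha
  obtain ⟨ε, hc, h2, h3⟩ := h.third ha hb h1.symm
  have c1 := h.card_step ha (hA.trans (h.Q_le ha.symm)) (hA.trans (Q_le_G 2 μ))
  have c2 := h.card_step hb.symm (A := A ⊓ Q[δ]) (inf_le_right.trans (h.Q_le hb)) (inf_le_right.trans (Q_le_G 2 δ))
  have c3 := h.card_step hc.symm (A := A ⊓ Q[δ] ⊓ Q[ν]) (inf_le_left.trans (inf_le_right.trans (h.Q_le hc)))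
    (inf_le_left.trans (inf_le_right.trans (Q_le_G 2 δ)))
  haveI := (h.s3 μ).fin
  haveI : Finite ↥(A ⊓ D2 δ) :=
    Finite.of_injective _ (inclusion_injective (inf_le_left.trans (hA.trans (Q_le_G 2 μ))))
  have c4 := card_le_of_le (show A ⊓ Q[δ] ⊓ Q[ν] ⊓ Q[ε] ≤ A ⊓ D2 δ from fun x hx =>
    ⟨hx.1.1.1, h.mem_D2_of ha hb hc h1 h2 h3 (hA hx.1.1.1) hx.1.2 hx.2⟩)
  omega

namespace S3Pt

variable (h : S3Pt M₁ M₂)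
include h

theorem three_le (hw : Arc w) (h0 : ¬ Pt (w 0)) (hq : Pt (w 𝔟)) : 3 ≤ 𝔟 := by
  have := h.two_le
  refine not_lt.1 fun e => ?_
  rw [show (𝔟 : ℤ) = 2 by omega] at hq
  exact h.ln (hw.adj 1 2) (h.pt (hw.adj 0 1) h0) hq

theorem pu_t (hp : Pt p) (ha : (Γ).Adj p α) (hb : (Γ).Adj p α') (hne : α ≠ α') :
    ∃ t ∈ Q[α'], t ∈ Q[p] ∧ t ∉ Q[α] := by
  by_contra hn
  push Not at hn
  have hD : ∀ {q l l' : CosetVertex M₁ M₂}, Pt q → (Γ).Adj q l → (Γ).Adj q l' → ∀ t ∈ Q[l'], t ∈ Q[q] → t ∈ Q[l] := by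
    intro q l l' hq a b t h1 h2
    by_cases e : l = l'
    · exact e ▸ h1
    obtain ⟨w, hw, rfl, rfl, rfl⟩ := h.exists_arc₂ ha.symm hb hne.symm
    obtain ⟨v, hv, rfl, rfl, rfl⟩ := h.exists_arc₂ a.symm b (Ne.symm e)
    obtain ⟨g, hg⟩ := h.tr_of h.ho_one 2 (by omega) (by omega) v w 0 0 hv hw
      (h.orb (iff_of_false (h.ln a hq) (h.ln ha hp)))
    have e0 := hg 0 le_rfl (by omega)
    have e1 := hg 1 (by omega) (by omega)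
    have e2 := hg 2 (by omega) le_rfl
    simp only [zero_add] at e0 e1 e2
    rw [← e0, ← e1, ← e2] at hn
    exact conj_mem_Q.1 (hn _ (conj_mem_Q.2 h1) (conj_mem_Q.2 h2))
  obtain ⟨w, hw, h0, hc⟩ := h.exists_crit_arc
  obtain ⟨a, h1, h2⟩ := SetLike.not_le_iff_exists.1 hc
  have b2 := h.two_le
  by_cases hq : ¬ Pt (w 𝔟)
  · exact h2 (hD (h.pt (hw.adj' _ (𝔟 - 1)) hq) (hw.adj _ _) (hw.adj' _ (𝔟 - 2)) a (h.ZQa hw _ _ (by omega) h1)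
      (h.ZQa hw _ _ (by omega) h1))
  rw [not_not] at hq
  have b3 := h.three_le hw h0 hq
  have hl := hw.adj' 𝔟 (𝔟 - 1)
  have hd := hw.adj 𝔟 (𝔟 + 1)
  have aq : a ∈ G[w 𝔟] := h.ZGa hw _ _ (by omega) h1
  have al : a ∈ Q[w (𝔟 - 1)] := h.ZQa hw _ _ (by omega) h1
  have k1 : ∀ f ∈ Q[w 2], f ∈ Q[w 1] → a * f = f * a := fun f a b =>
    h.Z_comm h1 (hD (h.pt (hw.adj 0 1) h0) (hw.adj' 1 0) (hw.adj 1 2) f a b)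
  have k2 : ∀ δ, (Γ).Adj (w 𝔟) δ → Z[δ] ≤ Q[w 2] := fun δ d => h.ZQ1 hw d 2
  have k3 : ∀ {δ δ' f f'}, (Γ).Adj (w 𝔟) δ → (Γ).Adj (w 𝔟) δ' → f ∈ Z[δ] → f' ∈ Z[δ'] → a * f ≠ f * a →
      a * f' ≠ f' * a → a * f' * a⁻¹ * f'⁻¹ = a * f * a⁻¹ * f⁻¹ := by
    intro δ δ' f f' d d' c c' e e'
    have g1 := k2 _ d c
    have g2 := k2 _ d' c'
    have := k1 _ (mul_mem (inv_mem g1) g2) (h.mul_mem (hw.adj 1 2) ⟨h.Q_le (hw.adj' 2 1) g1, Q_le_G 2 _ g1⟩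
      ⟨h.Q_le (hw.adj' 2 1) g2, Q_le_G 2 _ g2⟩ (fun c => e (k1 _ g1 c)) fun c => e' (k1 _ g2 c))
    calc a * f' * a⁻¹ * f'⁻¹ = a * f * a⁻¹ * (a * (f⁻¹ * f')) * a⁻¹ * f'⁻¹ := by group
      _ = _ := by rw [this]; group
  have ad := h.not_mem_G hl hd (hw.ne _ _) aq (Q_le_G 2 _ al) h2
  refine h.not_norm_Z hd aq ad (gs_norm_of_inv (h.Z_sq h1) fun f hf => ?_)
  by_cases e : a * f = f * a
  · rwa [e, mul_inv_cancel_right]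
  have f1 := h.conj_mem_Z a hf
  have f2 := h.Z_comm f1 (h.ZQn b3 hd (adj_of_G aq hd) hf)
  have f3 : a * f * a⁻¹ * f⁻¹ ∈ Q[w 𝔟] :=
    mul_mem (h.lt_adj b2 (adj_of_G aq hd).symm f1) (inv_mem (h.lt_adj b2 hd.symm hf))
  have : a * f * a⁻¹ * f⁻¹ ∈ Z[w 𝔟] := h.oz_le_Z hl (mem_oz.2 ⟨⟨⟨Q_le_G 2 _ f3, h.Q_le hl f3⟩,
    mem_cent.2 fun g hg => ?_⟩, by
      rw [h.Z_inv hf, pow_two, mul_assoc, ← mul_assoc f, ← f2, mul_assoc _ f f, h.Z_sq hf, mul_one, h.Z_sq f1]⟩)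
  · simpa using mul_mem (h.Zp_le hq hd.symm this) hf
  have g1 : a⁻¹ * (g * a * g⁻¹) ∈ Q[g • w (𝔟 + 1)] :=
    hD hq (adj_of_G hg.1 hd) hl _ (mul_mem (inv_mem al) (conj_mem_Q_of hg.2 al))
      (h.mul_mem hl ⟨aq, Q_le_G 2 _ al⟩ (mul_mem (mul_mem hg ⟨aq, Q_le_G 2 _ al⟩) (inv_mem hg)) h2
        (by rwa [conj_mem_Q_iff hg.1]))
  have g2 := h.conj_mem_Z g hf
  have g3 := h.Z_comm g2 g1
  have g4 : g * (a * f * a⁻¹ * f⁻¹) * g⁻¹ = a * (g * f * g⁻¹) * a⁻¹ * (g * f * g⁻¹)⁻¹ := by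
    calc _ = a * (a⁻¹ * (g * a * g⁻¹) * (g * f * g⁻¹)) * (g * a * g⁻¹)⁻¹ * (g * f * g⁻¹)⁻¹ := by group
      _ = _ := by rw [← g3]; group
  rw [← mul_inv_eq_iff_eq_mul, g4]
  refine k3 hd (adj_of_G hg.1 hd) hf g2 e fun c => e ?_
  rw [c, mul_inv_cancel_right, mul_inv_cancel, mul_inv_eq_one, mul_eq_left, mul_inv_eq_one] at g4
  exact mul_inv_eq_iff_eq_mul.1 g4

theorem pu (hp : Pt p) (ha : (Γ).Adj p α) (hb : (Γ).Adj p α') (hne : α ≠ α') (h1 : x ∈ Z[α]) (h2 : x ∈ Z[α']) :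
    x ∈ Z[p] := by
  obtain ⟨t, t1, t2, t3⟩ := h.pu_t hp ha hb hne
  exact h.cent_mem ha.symm h1 (h.Q_le ha t2) (Q_le_G 2 _ t2) t3 (h.Z_comm h2 t1)

theorem ho_three (hα : ¬ Pt α) : HO 3 α := by
  obtain ⟨p, a⟩ := exists_adj α
  obtain ⟨w, hw, rfl, rfl⟩ := h.exists_arc a.symm
  obtain ⟨t, t1, t2, t3⟩ := h.pu_t (h.pt a hα) (hw.adj 0 1) (hw.adj' 0 (-1)) (hw.ne' _ _)
  refine ⟨w, 1, hw, rfl, t, fun k a b => ?_, t3⟩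
  rcases (show k = -2 ∨ k = -1 ∨ k = 0 ∨ k = 1 by omega) with rfl | rfl | rfl | rfl
  exacts [h.Q_le (hw.adj' _ _) t1, Q_le_G 2 _ t1, Q_le_G 2 _ t2, h.Q_le (hw.adj _ _) t2]

theorem crit_sym (hw : Arc w) (i j : ℤ) (hj : ¬ Pt (w j)) (hc : ¬ Z[w i] ≤ Q[w j])
    (e : j - i ≤ 𝔟 ∧ i - j ≤ 𝔟 := by omega) : ∃ g ∈ Z[w j], g ∉ Q[w i] :=
  SetLike.not_le_iff_exists.1 fun c => hc ((le_inf (h.ZGa hw i j) (cent_symm (c.trans (h.Z_cent _)))).trans (h.nc hj))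

theorem k_one (hp : Pt p) (hx : x ∈ Z[p]) (hy : y ∈ Z[p]) (hx1 : x ≠ 1) (hy1 : y ≠ 1) : x = y := by
  suffices ∃ u : CosetVertex M₁ M₂, Pt u ∧ ∀ x ∈ Z[u], ∀ y ∈ Z[u], x ≠ 1 → y ≠ 1 → x = y by
    obtain ⟨u, hu, k⟩ := this
    obtain ⟨g, rfl⟩ := h.orb (iff_of_true hp hu)
    simpa using k _ (h.conj_mem_Z g hx) _ (h.conj_mem_Z g hy) (by simpa using hx1) (by simpa using hy1)
  obtain ⟨w, hw, h0, hc⟩ := h.exists_crit_arc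
  have b2 := h.two_le
  have key : ∀ {u δ μ : CosetVertex M₁ M₂}, Pt u → (Γ).Adj δ μ → Z[u] ≤ G[δ] ⊓ G[μ] →
      (∀ x ∈ Z[u], x ∈ Q[δ] → x = 1) → ∃ u : CosetVertex M₁ M₂, Pt u ∧
        ∀ x ∈ Z[u], ∀ y ∈ Z[u], x ≠ 1 → y ≠ 1 → x = y := fun {u δ μ} hu a b c =>
    ⟨u, hu, fun x hx y hy x1 y1 => inv_mul_eq_one.1 (c _ (mul_mem (inv_mem hx) hy)
      (h.mul_mem a (b hx) (b hy) (fun e => x1 (c _ hx e)) fun e => y1 (c _ hy e)))⟩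
  have hu := h.pt (hw.adj' 0 (-1)) h0
  have u0 := h.Zp_le hu (hw.adj' 0 (-1))
  have ub : Z[w (-1)] ≤ G[w 𝔟] ⊓ G[w (𝔟 - 1)] := u0.trans (le_inf (h.ZGa hw _ _) (h.ZGa hw _ _))
  by_cases hq : ¬ Pt (w 𝔟)
  · obtain ⟨g, g1, g2⟩ := h.crit_sym hw 0 𝔟 hq hc
    have g3 := h.ZGa hw _ 0 (by omega) g1
    exact key hu (hw.adj' 𝔟 (𝔟 - 1)) ub fun a a1 a2 => h.eq_one_of hu (hw.adj' 0 (-1)) a1 g3
      (h.not_mem_G (hw.adj 0 1) (hw.adj' 0 (-1)) (hw.ne' _ _) g3 (h.ZGa hw _ 1 (by omega) g1) g2) (h.Z_comm g1 a2).symm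
  rw [not_not] at hq
  have b3 := h.three_le hw h0 hq
  obtain ⟨a, h1, h2⟩ := SetLike.not_le_iff_exists.1 hc
  have hl := hw.adj' 𝔟 (𝔟 - 1)
  have hd := hw.adj 𝔟 (𝔟 + 1)
  have aq : a ∈ G[w 𝔟] := h.ZGa hw _ _ (by omega) h1
  by_cases e : ∃ f ∈ Z[w (𝔟 + 1)], f ∈ Q[w 1] ∧ f ∉ Q[w 0]
  · obtain ⟨f, f1, f2, f3⟩ := e
    have f4 := h.Q_le (hw.adj' 1 0) f2
    have ho := h.ho_of h0 hq (n := 𝔟) ⟨_, 0, hw.rev 0, rfl, f, fun k c d => by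
      rcases d.eq_or_lt with rfl | d
      exacts [f4, h.ZGa hw _ _ (by omega) f1], f3⟩ ((h.ho_crit hw hc).mono (by omega))
    refine key hu hl ub fun x x1 x2 => h.eq_one_of hu (hw.adj' 0 (-1)) x1 f4
      (h.not_mem_G (hw.adj 0 1) (hw.adj' 0 (-1)) (hw.ne' _ _) f4 (Q_le_G 2 _ f2) f3) ?_
    have c1 := h.comm_mem (hw.adj 0 1) (u0 x1) f4 (Q_le_G 2 _ f2)
    have c2 := inv_mem (h.comm_mem hd.symm f1 (h.Q_le hd x2) (Q_le_G 2 _ x2))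
    rw [show (f * x * f⁻¹ * x⁻¹)⁻¹ = x * f * x⁻¹ * f⁻¹ by group] at c2
    have := h.co_arc ho hw 1 𝔟 (h.pt (hw.adj 0 1) h0) hq (by omega) (by omega) c1 c2
    rwa [mul_inv_eq_one, mul_inv_eq_iff_eq_mul] at this
  · push Not at e
    have he := hw.adj (𝔟 + 1) (𝔟 + 2)
    have hv := h.pt2 hd he hq
    have v0 := h.Zp_le hv he
    refine key hv (hw.adj 1 2) (v0.trans (le_inf (h.ZGa hw _ _) (h.ZGa hw _ _))) fun f f1 f2 => ?_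
    have c := h.Z_comm h1 (e f (v0 f1) f2)
    have c1 := h.conj_mem_Z a (v0 f1)
    rw [c, mul_inv_cancel_right] at c1
    exact h.inter hv hq he hd.symm (hw.ne' _ _) f1 (h.pu hq hd (adj_of_G aq hd) (Ne.symm (h.not_mem_G hl hd (hw.ne _ _)
      aq (h.ZGa hw _ _ (by omega) h1) h2)) (v0 f1) c1)

theorem crit_even (hw : Arc w) (i : ℤ) (hj : ¬ Pt (w (i + 𝔟))) (hc : ¬ Z[w i] ≤ Q[w (i + 𝔟)]) :
    ∃ c, c ≠ 1 ∧ c ∈ Z[w (i + 1)] ∧ c ∈ Z[w (i + 𝔟 - 1)] := by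
  have b2 := h.two_le
  obtain ⟨g, g1, g2⟩ := h.crit_sym hw i _ hj hc
  obtain ⟨a, a1, a2⟩ := SetLike.not_le_iff_exists.1 hc
  have hl := hw.adj' (i + 𝔟) (i + 𝔟 - 1)
  have a3 := h.ZGa hw i (i + 𝔟) (by omega) a1
  have a4 := h.ZGa hw i (i + 𝔟 - 1) (by omega) a1
  refine ⟨_, fun e => g2 ?_, h.comm_mem (hw.adj i (i + 1)) a1 (h.ZGa hw _ i (by omega) g1)
    (h.ZGa hw _ (i + 1) (by omega) g1), ?_⟩
  · rw [mul_inv_eq_one, mul_inv_eq_iff_eq_mul] at e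
    exact h.ZQa hw _ _ (by omega) (h.cent_mem hl g1 a3 a4 a2 e.symm)
  · simpa [mul_assoc] using inv_mem (h.comm_mem hl g1 a3 a4)

theorem even_two (hw : Arc w) (h0 : ¬ Pt (w 0)) (hq : ¬ Pt (w 𝔟)) (hc : ¬ Z[w 0] ≤ Q[w 𝔟]) : 𝔟 = 2 := by
  have b2 := h.two_le
  have hp := h.pt (hw.adj 0 1) h0
  by_contra hb
  have b4 : 4 ≤ 𝔟 := not_lt.1 fun e => hq (by
    rw [show (𝔟 : ℤ) = 3 by omega]; exact h.pt2 (hw.adj 1 2) (hw.adj 2 3) hp)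
  obtain ⟨g, g1, g2⟩ := h.crit_sym hw 0 𝔟 hq hc
  obtain ⟨c, c1, c2, c3⟩ := h.crit_even hw 0 (by rwa [zero_add]) (by rwa [zero_add])
  rw [zero_add] at c2 c3
  have hl := hw.adj' 𝔟 (𝔟 - 1)
  have hq' := h.pt hl hq
  have hγ := hw.adj' 0 (-1)
  have g3 := h.ZGa hw _ 0 (by omega) g1
  have g4 := h.not_mem_G (hw.adj 0 1) hγ (hw.ne' _ _) g3 (h.ZGa hw _ 1 (by omega) g1) g2
  have k1 : ∀ δ, (Γ).Adj (w (-1)) δ → Z[δ] ≤ Q[w (𝔟 - 2)] := fun δ d => by_contra fun e => by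
    obtain ⟨v, hv, v1, v2⟩ := h.repl' hw (-1) d (by rintro rfl; exact e (h.ZQa hw _ _))
    have e1 : v (-1 - 1 + 𝔟) = w (𝔟 - 2) := by rw [v1 _ (by omega)]; exact congrArg w (by omega)
    obtain ⟨c, c1, c2, c3⟩ := h.crit_even hv (-1 - 1) (e1 ▸ h.ln (hw.adj' (𝔟 - 1) (𝔟 - 2)) hq') (by rwa [e1, v2])
    rw [v1 _ (by omega)] at c2 c3
    refine c1 (h.eq_one_of (h.pt hγ h0) hγ c2 g3 g4 (h.Z_comm g1 (h.ZQa hw (𝔟 - 2) _ (by omega) ?_)).symm)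
    exact h.Zp_le (h.pt2 (hw.adj' (𝔟 - 1) (𝔟 - 2)) (hw.adj' _ _) hq') (hw.adj' _ _) c3
  have k2 : ∃ δ, (Γ).Adj (w (-1)) δ ∧ ¬ Z[δ] ≤ Q[w (𝔟 - 1)] := by
    by_contra hn
    push Not at hn
    have n1 : G[w (-1)] ≤ 𝐍(ZS {δ | (Γ).Adj (w (-1)) δ}) := h.norm_ZS fun g hg δ d => adj_of_G hg d
    have n2 : g ∈ 𝐍(ZS {δ | (Γ).Adj (w (-1)) δ}) := gs_norm_of_inv (h.Z_sq g1) (conj_mem_ZS fun δ d y hy => by
      have c4 := h.comm_mem hl g1 (h.Q_le hl.symm (hn δ d hy)) (Q_le_G 2 _ (hn δ d hy))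
      have c5 : g * y * g⁻¹ * y⁻¹ ∈ Z[w 0] := by
        by_cases e : g * y * g⁻¹ * y⁻¹ = 1
        · rw [e]; exact one_mem _
        · rw [h.k_one hq' c4 c3 e c1]; exact h.Zp_le hp (hw.adj 0 1) c2
      simpa using mul_mem (le_ZS (S := {δ | (Γ).Adj (w (-1)) δ}) hγ.symm c5) (le_ZS d hy))
    exact Z_ne_bot h.ch (w 0) (eq_bot_mono (h.eq_bot' hγ (ZS_le fun δ d => (h.lt_adj b2 d.symm).trans
      (le_inf (h.Q_le hγ.symm) (Q_le_G 2 _))) (h.gen hγ (inf_le_right.trans n1) g3 n2 g4) n1) (le_ZS hγ.symm))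
  obtain ⟨δ, d, e⟩ := k2
  obtain ⟨y, y1, y2⟩ := SetLike.not_le_iff_exists.1 e
  refine c1 (h.co_arc (h.ho_of hq hq' (n := 𝔟 - 1) ((h.ho_crit hw hc).mono (by omega))
    ⟨w, _, hw, rfl, y, fun k a b => ?_, y2⟩) hw 1 (𝔟 - 1) hp hq' (by omega) (by omega) c2 c3)
  rcases (show k = 𝔟 - 1 ∨ k = 𝔟 - 2 ∨ k ≤ 𝔟 - 3 by omega) with rfl | rfl | c
  exacts [h.Q_le (hw.adj _ _) (k1 δ d y1), Q_le_G 2 _ (k1 δ d y1), Q_le_G 2 _ (h.ZQ1 hw d k (by omega) y1)]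

/-- A non-trivial normal subgroup of an edge group contains `Z_p`. -/
theorem Zp_le_of_norm (hp : Pt p) (ha : (Γ).Adj α p) (h1 : T ≤ G[α] ⊓ G[p]) (h2 : G[α] ⊓ G[p] ≤ 𝐍(T))
    (h3 : T ≠ ⊥) : Z[p] ≤ T := fun x hx => by
  haveI := h.fin_edge α p
  obtain ⟨z, z1, z2, z3⟩ := gs_exists_oz (h.syl ha).pgroup h1 h2 h3
  by_cases e : x = 1
  · rw [e]; exact one_mem _
  · rwa [h.k_one hp hx (h.oz_le_Z' ha z3) e z2]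

theorem bound_two (hb : 𝔟 = 2) : ∃ δ μ : CosetVertex M₁ M₂, (Γ).Adj δ μ ∧ Nat.card ↥(G[δ] ⊓ G[μ]) ≤ 128 := by
  obtain ⟨w, hw, h0, hc⟩ := h.exists_crit_arc
  rw [hb] at hc
  have a1 := hw.adj 0 1
  have a3 := hw.adj' 0 (-1)
  obtain ⟨s, s1, s2⟩ := h.crit_sym hw 0 2 (h.ln (hw.adj 1 2) (h.pt a1 h0)) hc
  have s3 := h.ZGa hw _ 0 (by omega) s1
  have s4 := h.ZGa hw _ 1 (by omega) s1
  have k : D3 (w 0) = ⊥ := by_contra fun e => hc fun z hz => by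
    obtain ⟨a, ha, c, hc, rfl⟩ := h.decomp h0 a1 a3 (hw.ne' _ _) hz
    have := h.Zp_le_of_norm (h.pt a3 h0) a3 (fun x hx => by
      have := mem_D2.1 (mem_D3.1 hx _ a3) _ a3.symm
      exact ⟨Q_le_G 2 _ this, h.Q_le a3 this⟩) (inf_le_left.trans (norm_D3 _)) e hc
    exact mul_mem (h.ZQa hw 1 2 (by omega) ha) (mem_D2.1 (mem_D3.1 this _ a1) _ (hw.adj 1 2))
  have c1 := h.card_step a3 (A := G[w 0] ⊓ G[w (-1)]) inf_le_left inf_le_right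
  have c2 := h.card_D2 a3.symm (A := G[w 0] ⊓ G[w (-1)] ⊓ Q[w 0]) inf_le_right
  have c3 := h.card_D2 a1.symm (A := G[w 0] ⊓ G[w (-1)] ⊓ Q[w 0] ⊓ D2 (w (-1))) (inf_le_left.trans inf_le_right)
  have c4 : G[w 0] ⊓ G[w (-1)] ⊓ Q[w 0] ⊓ D2 (w (-1)) ⊓ D2 (w 1) = ⊥ := eq_bot_mono k fun t ht => by
    have e := conj_mem_D2 s ht.1.2
    rw [h.Z_comm s1 (mem_D2.1 ht.2 _ (hw.adj 1 2)), mul_inv_cancel_right] at e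
    exact h.mem_D3_of a1 a3 (adj_of_G s3 a3) (hw.ne _ _) (smul_ne_of_G s4 (hw.ne _ _))
      (h.not_mem_G a1 a3 (hw.ne' _ _) s3 s4 s2) ht.2 ht.1.2 e
  rw [c4, card_bot] at c3
  exact ⟨_, _, a3, by omega⟩

end S3Pt

end Cfsg.Lib.Amalgam
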