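import Cfsg.Agent.Lib.Amalgam.GBig

/-! Goldschmidt's bound: the edge group of an `(S₃,S₃)`-amalgam has order at most `2⁷`. -/

set_option autoImplicit false
set_option linter.unusedSectionVars false
set_option linter.style.haveILetI false

namespace Cfsg.Lib.Amalgam

open Cfsg Subgroup Transfer Cfsg.Lib.Core Cfsg.Lib.BG Cfsg.Lib.Loc
open scoped commutatorElement

variable {X : Type*} [Group X] {H K T A R : Subgroup X} {g t r : X}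
variable {M₁ M₂ : Subgroup X} {δ μ ν ε γ α p q u v l m n k x y : CosetVertex M₁ M₂}

local notation "G[" δ "]" => MulAction.stabilizer X δ
local notation "Q[" δ "]" => vertexQ 2 δ
local notation "Z[" δ "]" => vertexZ 2 δ
local notation "Γ" => cosetGraph M₁ M₂
local notation "𝔟" => criticalDistance 2 M₁ M₂

theorem S3Pt.Z_line' (h : S3Pt M₁ M₂) (hu : Pt u) (ha : (Γ).Adj α u) (hx : t ∈ Z[α]) :
    t ∈ Z[u] ∨ ∃ v, (Γ).Adj α v ∧ v ≠ u ∧ t = zz v := by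
  obtain ⟨v, hb, hne⟩ := h.exists_ne ha
  rcases h.Z_line hu ha hb hne.symm hx with rfl | rfl | rfl | rfl
  · exact Or.inl (one_mem _)
  · exact Or.inl (h.z_mem u)
  · exact Or.inr ⟨v, hb, hne, rfl⟩
  · obtain ⟨g, hg, hq⟩ := h.exists_out ha
    exact Or.inr ⟨_, adj_of_G hg.1 hb, smul_ne_of_G hg.2 hne, by
      rw [h.z_smul (h.pt2 ha.symm hb hu), h.conj_z hu ha hb hne hg.1 hg.2 hq]⟩

namespace S3Od

variable (h : S3Od M₁ M₂)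
include h

theorem z_Q (hx : Pt x) (a1 : (Γ).Adj x l) (a2 : (Γ).Adj x n) (a3 : (Γ).Adj n u) : zz u ∈ Q[l] :=
  h.ZQn h.b3 a2 a1 (h.z_ln (h.pt2 a2 a3 hx) a3)

theorem cr3 (hx : Pt x) (a1 : (Γ).Adj x l) (a2 : (Γ).Adj x n) (a3 : (Γ).Adj n u) (a4 : (Γ).Adj l y) (n1 : n ≠ l)
    (n2 : u ≠ x) (n3 : y ≠ x) : zz u ∉ Q[y] := by
  obtain ⟨w, hw, rfl, rfl, rfl⟩ := h.exists_arc₂ a3.symm a2.symm n2.symm
  obtain ⟨v, hv, v1, v2⟩ := h.repl hw 2 a1 n1.symm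
  obtain ⟨v', hv', v3, v4⟩ := h.repl hv (2 + 1) (v2 ▸ a4) (by rwa [add_sub_cancel_right, v1 _ le_rfl])
  have e : v' 0 = w 0 := (v3 0 (by omega)).trans (v1 0 (by omega))
  rw [← e, ← v4]
  exact h.all_three h.b_eq_three hv' _ _ (e ▸ h.pt2 a2 a3 hx)

theorem comm3 (hx : Pt x) (a1 : (Γ).Adj x l) (a2 : (Γ).Adj x n) (a3 : (Γ).Adj n u) (a4 : (Γ).Adj l y)
    (a5 : (Γ).Adj y k) (a6 : (Γ).Adj k v) (n1 : n ≠ l) (n2 : u ≠ x) (n3 : y ≠ x) (n4 : k ≠ l) (n5 : v ≠ y) :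
    zz u * zz v * (zz u)⁻¹ * (zz v)⁻¹ = zz x * zz y := by
  have hy := h.pt2 a1 a4 hx
  have c1 := h.z_Q hx a1 a2 a3
  have c2 := h.z_Q hy a4.symm a5 a6
  have r1 := h.RR_comm hy a4.symm a5 n4 a6 n5 (h.Q_le a4 c1) (Q_le_G 2 _ c1) (h.cr3 hx a1 a2 a3 a4 n1 n2 n3)
  have r2 := h.RR_not_mem hx (h.RR_comm hx a1 a2 n1 a3 n2 (h.Q_le a1.symm c2) (Q_le_G 2 _ c2)
    (h.cr3 hy a4.symm a5 a6 a1.symm n4 n5 n3.symm))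
  rw [← inv_mem_iff, show ∀ a b : X, (a * b * a⁻¹ * b⁻¹)⁻¹ = b * a * b⁻¹ * a⁻¹ from fun a b => by group] at r2
  rcases h.Z_line hx a1.symm a4 n3.symm (h.v8 _ _ _ hy a4.symm r1) with e | e | e | e
  exacts [(r2 (e ▸ one_mem _)).elim, (r2 (e ▸ h.z_mem _)).elim, (h.RR_not_mem hy r1 (e ▸ h.z_mem _)).elim, e]

theorem mem_D2_of_two (hp : Pt p) (hl : (Γ).Adj p l) (hm : (Γ).Adj p m) (hne : m ≠ l) (h1 : t ∈ Q[l])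
    (h2 : t ∈ Q[m]) : t ∈ D2 p := by
  obtain ⟨k, a, n1, n2⟩ := h.third hl hm hne.symm
  obtain ⟨u, b, n3⟩ := h.exists_ne hm.symm
  obtain ⟨v, c, n4⟩ := h.exists_ne a.symm
  have e1 := h.Z_comm (h.v8 _ _ _ hp hl ⟨_, _, _, _, hm, a, hne, n1, n2, b, c, n3, n4, rfl⟩) h1
  rw [← mul_assoc, ← h.Z_comm (h.z_ln (h.pt2 hm b hp) b) h2, mul_assoc, mul_assoc] at e1
  have e2 := h.Q_le hl.symm h1
  exact h.mem_D2_of hl hm a hne n1 n2 h1 h2 (h.mem_Q_of_z hp a.symm c n4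
    (h.Q_le a (h.mem_Q hl hm hne.symm e2 (Q_le_G 2 _ h1) (Q_le_G 2 _ h2))) e2 (mul_left_cancel e1))

theorem card_D2' (hp : Pt p) (hl : (Γ).Adj p l) (hA : A ≤ Q[l]) : Nat.card A ≤ 4 * Nat.card ↥(A ⊓ D2 p) := by
  obtain ⟨m, hm, h1⟩ := h.exists_ne hl
  have c1 := h.card_step hl (hA.trans (h.Q_le hl.symm)) (hA.trans (Q_le_G 2 l))
  have c2 := h.card_step hm.symm (A := A ⊓ Q[p]) (inf_le_right.trans (h.Q_le hm)) (inf_le_right.trans (Q_le_G 2 p))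
  haveI := (h.s3 l).fin
  haveI : Finite ↥(A ⊓ D2 p) :=
    Finite.of_injective _ (inclusion_injective (inf_le_left.trans (hA.trans (Q_le_G 2 l))))
  have c4 := card_le_of_le (show A ⊓ Q[p] ⊓ Q[m] ≤ A ⊓ D2 p from fun x hx =>
    ⟨hx.1.1, h.mem_D2_of_two hp hl hm h1 (hA hx.1.1) hx.2⟩)
  omega

theorem z_cent_D3 (hx : Pt x) (a1 : (Γ).Adj x l) (a2 : (Γ).Adj x n) (a3 : (Γ).Adj n u) : zz u ∈ 𝐂(D3 l) :=
  mem_cent.2 fun _ hk => (h.Z_comm (h.z_ln (h.pt2 a2 a3 hx) a3) (mem_D2.1 (mem_D3.1 hk _ a1.symm) _ a2)).symm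

theorem exists_s (hp : Pt p) (hm : (Γ).Adj p m) : ∃ s ∈ Q[m], s ∈ Q[p] ∧ (∀ l, (Γ).Adj p l → l ≠ m → s ∉ Q[l]) ∧
    (∀ t ∈ Q[m], s * t * s⁻¹ * t⁻¹ ∈ Z[m]) ∧ s ∈ 𝐂(D3 m) := by
  have key : ∀ x, (Γ).Adj m x → x ≠ p → ∃ a ∈ Q[m], a⁻¹ = a ∧ a ∉ Q[p] ∧ (∀ t ∈ Q[m], a * t * a⁻¹ * t⁻¹ ∈ Z[m]) ∧
      a ∈ 𝐂(D3 m) ∧ ∀ l v, (Γ).Adj p l → l ≠ m → (Γ).Adj l v → v ≠ p →
        a * zz v * a⁻¹ * (zz v)⁻¹ = zz x * zz p := fun x a1 n1 => by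
    have hx := h.pt2 hm a1 hp
    obtain ⟨n, a2, n2⟩ := h.exists_ne a1.symm
    obtain ⟨u, a3, n3⟩ := h.exists_ne a2.symm
    refine ⟨zz u, h.z_Q hx a1.symm a2 a3, h.z_inv u, h.cr3 hx a1.symm a2 a3 hm.symm n2 n3 n1.symm, fun t ht => ?_,
      h.z_cent_D3 hx a1.symm a2 a3, fun l v b1 b2 b3 b4 =>
        h.comm3 hx a1.symm a2 a3 hm.symm b1 b3 n2 n3 n1.symm b2 b4⟩
    by_cases c : t ∈ Q[x]
    · exact h.Zp_le hx a1 (h.comm_mem a2.symm (h.z_ln (h.pt2 a2 a3 hx) a3) (h.Q_le a2 c) (Q_le_G 2 _ c))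
    · simpa [mul_assoc] using inv_mem (h.v8 _ _ _ hx a1.symm (h.RR_comm hx a1.symm a2 n2 a3 n3 (h.Q_le a1 ht)
        (Q_le_G 2 _ ht) c))
  obtain ⟨x, a1, n1⟩ := h.exists_ne hm.symm
  obtain ⟨y, a2, n2, n3⟩ := h.third hm.symm a1 n1.symm
  obtain ⟨a, b1, b2, b3, b4, b5, b6⟩ := key x a1 n1
  obtain ⟨c, c1, c2, c3, c4, c5, c6⟩ := key y a2 n2
  refine ⟨a * c, mul_mem b1 c1, mul_mem_of_relIndex_two (h.idx hm) ⟨h.Q_le hm.symm b1, Q_le_G 2 _ b1⟩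
    ⟨h.Q_le hm.symm c1, Q_le_G 2 _ c1⟩ b3 c3, fun l d1 d2 d3 => ?_, fun t ht => ?_, mul_mem b5 c5⟩
  · obtain ⟨v, d4, d5⟩ := h.exists_ne d1.symm
    have e := h.Z_comm (h.z_ln (h.pt2 d1 d4 hp) d4) d3
    refine h.z_ne_z (h.pt2 hm a1 hp) a1 a2 n3.symm (mul_right_cancel (b := zz p) ?_)
    rw [← b6 l v d1 d2 d4 d5, ← c6 l v d1 d2 d4 d5, mul_left_inj]
    calc a * zz v * a⁻¹ = a⁻¹ * (zz v * (a * c)) * c⁻¹ := by nth_rw 1 [← b2]; nth_rw 2 [b2]; group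
      _ = _ := by rw [e]; group
  · rw [show a * c * t * (a * c)⁻¹ * t⁻¹ = a * (c * t * c⁻¹ * t⁻¹) * a⁻¹ * (a * t * a⁻¹ * t⁻¹) by group]
    exact mul_mem (conj_mem_of_norm (h.norm_Z m (Q_le_G 2 _ b1)) (c4 t ht)) (b4 t ht)

theorem d2_comm (hp : Pt p) (a1 : (Γ).Adj l p) (a2 : (Γ).Adj l x) (a3 : (Γ).Adj l y) (n1 : x ≠ p) (n2 : y ≠ p)
    (n3 : y ≠ x) (a4 : (Γ).Adj y n) (n4 : n ≠ l) (a5 : (Γ).Adj n u) (n5 : u ≠ y) (h1 : t ∈ D2 x) (h2 : t ∈ D2 p) :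
    t * zz u * t⁻¹ * (zz u)⁻¹ = 1 ∨ t * zz u * t⁻¹ * (zz u)⁻¹ = zz p * zz y := by
  obtain ⟨m, hm, n6⟩ := h.exists_ne a1.symm
  obtain ⟨s, s1, s2, s3, s4, -⟩ := h.exists_s hp hm
  have hy := h.pt2 a1.symm a3 hp
  have hu := h.pt2 a4 a5 hy
  have e1 := h.swap a1 a3 a2 n2 n1 n3.symm (h.Q_le a1.symm s2) (Q_le_G 2 _ s2) (s3 l a1.symm n6.symm)
  have e2 := h.Z_comm (h.conj_mem_Z s (h.z_ln hu a5)) (mem_D2.1 h1 _ (e1 ▸ adj_smul s a4))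
  have e3 := s4 _ (mul_mem (mul_mem (inv_mem s1) (mem_D2.1 h2 _ hm)) s1)
  have e4 : t * zz u * t⁻¹ = s * (s⁻¹ * t * s) * s⁻¹ * (s⁻¹ * t * s)⁻¹ * zz u *
      (s * (s⁻¹ * t * s) * s⁻¹ * (s⁻¹ * t * s)⁻¹)⁻¹ := by
    calc _ = t * s⁻¹ * t⁻¹ * (t * (s * zz u * s⁻¹)) * s * t⁻¹ := by group
      _ = _ := by rw [← e2]; group
  rw [e4]
  rcases h.Z_line' hp hm.symm e3 with c | ⟨v, c1, c2, c3⟩
  · exact Or.inl (by rw [h.Z_comm (h.Zp_le hp a1 c) (h.z_Q hy a3.symm a4 a5)]; group)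
  · exact Or.inr (c3 ▸ h.comm3 hp a1.symm hm c1 a3 a4 a5 n6 c2 n2 n4 n5)

theorem mem_D3_of_two (hp : Pt p) (a1 : (Γ).Adj l p) (a2 : (Γ).Adj l x) (n1 : x ≠ p) (h1 : t ∈ D2 x)
    (h2 : t ∈ D2 p) : t ∈ D3 l := by
  obtain ⟨y, a3, n2, n3⟩ := h.third a1 a2 n1.symm
  obtain ⟨n, a4, n4⟩ := h.exists_ne a3.symm
  obtain ⟨u, a5, n5⟩ := h.exists_ne a4.symm
  have hy := h.pt2 a1.symm a3 hp
  have e : t * zz u * t⁻¹ * (zz u)⁻¹ = 1 := by_contra fun e => h.z_ne_z hp a1 a2 n1.symm (mul_right_cancel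
    (((h.d2_comm hp a1 a2 a3 n1 n2 n3 a4 n4 a5 n5 h1 h2).resolve_left e).symm.trans
      ((h.d2_comm (h.pt2 a1.symm a2 hp) a2 a1 a3 n1.symm n3 n2 a4 n4 a5 n5 h2 h1).resolve_left e)))
  have t1 := mem_D2.1 h2 _ a1.symm
  have t2 : t ∈ Q[y] := by_contra fun c => h.RR_not_mem hy (h.RR_comm hy a3.symm a4 n4 a5 n5 (h.Q_le a3 t1)
    (Q_le_G 2 _ t1) c) (e ▸ one_mem _)
  rw [mul_inv_eq_one, mul_inv_eq_iff_eq_mul] at e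
  exact h.mem_D3_of a1 a2 a3 n1 n2 n3 h2 h1 (h.mem_D2_of_two hy a3.symm a4 n4 t1
    (h.mem_Q_of_z hy a4.symm a5 n5 (h.Q_le a4 t2) (Q_le_G 2 _ t2) e.symm))

theorem exists_s' (hp : Pt p) (hl : (Γ).Adj l p) : ∃ s ∈ G[l] ⊓ G[p], s ∉ Q[l] ∧ Q[l] ≤ 𝐍(D3 l ⊓ 𝐂[s]) ∧
    ∀ A ≤ D3 l, Nat.card A ≤ 2 * Nat.card ↥(A ⊓ 𝐂[s]) := by
  obtain ⟨m, hm, n1⟩ := h.exists_ne hl.symm
  obtain ⟨s, s1, s2, s3, s4, -⟩ := h.exists_s hp hm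
  have s5 := h.Q_le hl.symm s2
  have k1 : ∀ k ∈ D3 l, k ∈ Q[m] := fun k hk => mem_D2.1 (mem_D3.1 hk _ hl) _ hm
  obtain ⟨y, a1, n2⟩ := h.exists_ne hl
  obtain ⟨n, a2, n3⟩ := h.exists_ne a1.symm
  refine ⟨s, ⟨s5, Q_le_G 2 _ s2⟩, s3 l hl.symm n1.symm, ?_, fun A hA => gs_card_le fun a ha b hb c d => ?_⟩
  · have c1 : 𝐂(D3 l) ≤ 𝐍(D3 l ⊓ 𝐂[s]) := norm_of_cent (cent_anti inf_le_left)
    have c2 : D2 p ≤ 𝐍(D3 l ⊓ 𝐂[s]) := norm_of_conj_le fun d hd => by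
      rintro _ ⟨k, hk, rfl⟩
      have e1 := conj_mem_of_norm (norm_D3 l (Q_le_G 2 _ (mem_D2.1 hd _ hl.symm))) hk.1
      have e2 := h.Z_comm (s4 d (mem_D2.1 hd _ hm)) (k1 _ e1)
      refine ⟨e1, mem_cent1.2 ?_⟩
      calc d * k * d⁻¹ * s = (s * d * s⁻¹ * d⁻¹)⁻¹⁻¹ * (d * k * d⁻¹) * (s * d * s⁻¹ * d⁻¹)⁻¹ * s := by
            rw [inv_inv, e2]; group
        _ = s * d * s⁻¹ * (k * s) * d⁻¹ := by group
        _ = s * (d * k * d⁻¹) := by rw [mem_cent1.1 hk.2]; group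
    obtain ⟨s', t1, t2, t3, -, t4⟩ := h.exists_s hp hl.symm
    have c3 : ∀ t ∈ Q[l], t ∈ Q[p] → t ∈ 𝐍(D3 l ⊓ 𝐂[s]) := fun t a b => by
      by_cases c : t ∈ Q[m]
      · exact c2 (h.mem_D2_of_two hp hl.symm hm n1 a c)
      · simpa using mul_mem (c1 t4) (c2 (h.mem_D2_of_two hp hl.symm hm n1 (mul_mem (inv_mem t1) a)
          (h.mul_mem hm.symm ⟨h.Q_le hm t2, Q_le_G 2 _ t2⟩ ⟨h.Q_le hm b, Q_le_G 2 _ b⟩ (t3 m hm n1) c)))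
    intro t a
    by_cases b : t ∈ Q[p]
    · exact c3 t a b
    obtain ⟨u, a3, n4⟩ := h.exists_ne a2.symm
    have hy := h.pt2 hl.symm a1 hp
    have u1 := h.z_Q hy a1.symm a2 a3
    simpa using mul_mem (c1 (h.z_cent_D3 hy a1.symm a2 a3)) (c3 _ (mul_mem (inv_mem u1) a) (h.mul_mem hl.symm
      ⟨h.Q_le hl u1, Q_le_G 2 _ u1⟩ ⟨h.Q_le hl a, Q_le_G 2 _ a⟩ (h.cr3 hy a1.symm a2 a3 hl n3 n4 n2.symm) b))
  · have key : ∀ k ∈ D3 l, k ∉ 𝐂[s] → s * k * s⁻¹ = zz p * k := fun k hk c => by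
      have e1 := mem_D3.1 (mul_mem (conj_mem_of_norm (norm_D3 l s5) hk) (inv_mem hk)) _ a1
      have e2 := mem_D2.1 e1 _ a1.symm
      rcases h.Z_line' hp hm.symm (s4 k (k1 k hk)) with e | ⟨v, c1, c2, c3⟩
      · rcases h.eq_z hp e with e | e
        · rw [mul_inv_eq_one, mul_inv_eq_iff_eq_mul] at e
          exact (c (mem_cent1.2 e.symm)).elim
        · exact mul_inv_eq_iff_eq_mul.1 e
      · exact (h.cr3 hp hl.symm hm c1 a1 n1 c2 n2 (c3 ▸ h.mem_Q a1.symm a2 n3.symm (h.Q_le a1 e2) (Q_le_G 2 _ e2)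
          (Q_le_G 2 _ (mem_D2.1 e1 _ a2)))).elim
    refine mem_cent1.2 (mul_inv_eq_iff_eq_mul.1 ?_).symm
    rw [show s * (a⁻¹ * b) * s⁻¹ = (s * a * s⁻¹)⁻¹ * (s * b * s⁻¹) by group, key a (hA ha) c, key b (hA hb) d]
    group

theorem bound : ∃ δ μ : CosetVertex M₁ M₂, (Γ).Adj δ μ ∧ Nat.card ↥(G[δ] ⊓ G[μ]) ≤ 128 := by
  obtain ⟨w, hw, hp, -⟩ := h.exists_cr
  have a1 := hw.adj' 1 0
  have a2 := hw.adj 1 2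
  have n1 := hw.ne' 2 0
  generalize w 0 = p, w 1 = l, w 2 = x at *
  have hx := h.pt2 a1.symm a2 hp
  obtain ⟨s, s1, s2, s3, s4⟩ := h.exists_s' hp a1
  obtain ⟨s', t1, t2, t3, t4⟩ := h.exists_s' hx a2
  have k : (D3 l ⊓ 𝐂[s]) ⊓ (D3 l ⊓ 𝐂[s']) = ⊥ := by_contra fun e => t2 (h.mem_Q_of_z hx a2 a1 n1.symm t1.1 t1.2
    (mem_cent1.1 (h.Zp_le_of_norm hp a1 (fun x hx => by
      have := mem_D2.1 (mem_D3.1 hx.1.1 _ a1) _ a1.symm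
      exact ⟨Q_le_G 2 _ this, h.Q_le a1 this⟩) (h.edge_le a1 (norm_inf s3 t3) s1 (norm_of_cent (A := 𝐂(_)) le_rfl
        (mem_cent.2 fun _ hx => mem_cent1.1 hx.1.2)) s2) e (h.z_mem p)).2.2))
  have c1 := h.card_step a1 (A := G[l] ⊓ G[p]) inf_le_left inf_le_right
  have c2 := h.card_D2' hp a1.symm (A := G[l] ⊓ G[p] ⊓ Q[l]) inf_le_right
  have c3 := h.card_D2' hx a2.symm (A := G[l] ⊓ G[p] ⊓ Q[l] ⊓ D2 p) (inf_le_left.trans inf_le_right)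
  have d : G[l] ⊓ G[p] ⊓ Q[l] ⊓ D2 p ⊓ D2 x ≤ D3 l := fun t ht => h.mem_D3_of_two hp a1 a2 n1 ht.2 ht.1.2
  have c4 := s4 _ d
  have c5 := t4 _ ((inf_le_left (b := 𝐂[s])).trans d)
  rw [eq_bot_mono k (A := G[l] ⊓ G[p] ⊓ Q[l] ⊓ D2 p ⊓ D2 x ⊓ 𝐂[s] ⊓ 𝐂[s']) fun t ht =>
    ⟨⟨d ht.1.1, ht.1.2⟩, d ht.1.1, ht.2⟩, card_bot] at c5
  exact ⟨_, _, a1, by omega⟩

end S3Od

theorem S3Pt.bound (h : S3Pt M₁ M₂) : ∃ δ μ : CosetVertex M₁ M₂, (Γ).Adj δ μ ∧ Nat.card ↥(G[δ] ⊓ G[μ]) ≤ 128 := by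
  obtain ⟨w, hw, h0, hc⟩ := h.exists_crit_arc
  by_cases e : Pt (w 𝔟)
  · exact S3Od.bound ⟨h, w, hw, h0, e, hc⟩
  · exact h.bound_two (h.even_two hw h0 e hc)

theorem S3Ch.bound (h : S3Ch M₁ M₂) : ∃ δ μ : CosetVertex M₁ M₂, (Γ).Adj δ μ ∧ Nat.card ↥(G[δ] ⊓ G[μ]) ≤ 128 := by
  have a := adj_inl_inr (M₁ := M₁) (M₂ := M₂) 1
  generalize (Sum.inl ((1 : X) : X ⧸ M₁) : CosetVertex M₁ M₂) = α, (Sum.inr ((1 : X) : X ⧸ M₂) :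
    CosetVertex M₁ M₂) = β at a
  have nc : ∀ {δ μ : CosetVertex M₁ M₂}, (Γ).Adj δ μ → ¬ Pt δ → NC δ := fun {δ μ} b c => h.NC_of b fun e =>
    haveI := (h.s3 δ).fin
    c (cent_symm (Z_le_iff.2 fun T hT => by
      obtain ⟨g, hg, rfl⟩ := (h.syl b).exists_conj_eq hT
      rw [← conj_oz, conj_eq_of_cent (e hg)]
      exact cent_symm e))
  by_cases e : Pt α ↔ ¬ Pt β
  · exact S3Pt.bound ⟨h, fun δ μ b => edge_ind (P := fun δ μ => Pt δ ↔ ¬ Pt μ) a e (by tauto)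
      (fun g a b c => by rwa [h.Pt_smul_iff, h.Pt_smul_iff]) b⟩
  by_cases e1 : Pt α
  · have e2 : Pt β := by tauto
    obtain ⟨x, hx, hx1⟩ := exists_ne_one (Z_ne_bot h.ch β)
    have := h.Z_pt e2 a hx
    exact (hx1 (h.eq_one a (oz_le _ this) (e1.trans (cent_le_cent1 (h.oz_le_Z a this)))
      (e2.trans (cent_le_cent1 hx)))).elim
  have hn : ∀ δ : CosetVertex M₁ M₂, NC δ := fun δ => by
    obtain ⟨μ, b⟩ := exists_adj δ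
    exact edge_ind (P := fun δ _ => NC δ) a (nc a e1) (nc a.symm (by tauto)) (fun g _ _ => h.NC_smul g) b
  have c1 := h.card_step a (A := G[α] ⊓ G[β]) inf_le_left inf_le_right
  rw [inf_eq_right.2 (le_inf (Q_le_G 2 α) (h.Q_le a)), h.card_Q hn a] at c1
  have := h.card_D hn a
  exact ⟨_, _, a, by omega⟩

theorem S3Am.bound_of_not (h : S3Am M₁ M₂) (ha : (Γ).Adj δ μ) (hc : ¬ IsChP 2 G[μ]) :
    Nat.card ↥(G[δ] ⊓ G[μ]) ≤ 128 := by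
  have k1 : D2 δ ≤ Q[μ] := fun _ hx => mem_D2.1 hx _ ha
  have k : D2 δ = ⊥ := h.eq_bot' ha (k1.trans (le_inf (h.Q_le ha.symm) (Q_le_G 2 μ))) (norm_D2 δ)
    (((h.s3 μ).le_sup_of_normal (h.syl ha.symm) inf_le_left (norm_inf (le_norm _) (norm_cent (norm_Q 2 μ))) hc).trans
      (sup_le (inf_le_right.trans (norm_of_cent (cent_anti k1))) (inf_le_right.trans (norm_D2 δ))))
  have c1 := h.card_step ha.symm (A := G[δ] ⊓ G[μ]) inf_le_right inf_le_left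
  have c2 := h.card_D2 ha (A := G[δ] ⊓ G[μ] ⊓ Q[μ]) inf_le_right
  rw [k, inf_bot_eq, card_bot] at c2
  omega

/-- Goldschmidt's bound. -/
theorem S3Am.card_le (h : S3Am M₁ M₂) : Nat.card ↥(M₁ ⊓ M₂) ≤ 128 := by
  have a := adj_inl_inr (M₁ := M₁) (M₂ := M₂) 1
  have : ∃ δ μ : CosetVertex M₁ M₂, (Γ).Adj δ μ ∧ Nat.card ↥(G[δ] ⊓ G[μ]) ≤ 128 := by
    by_cases c1 : IsChP 2 M₁
    · by_cases c2 : IsChP 2 M₂
      · exact S3Ch.bound ⟨h, h.chp c1 c2⟩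
      · exact ⟨_, _, a, h.bound_of_not a (by rwa [G_base₂])⟩
    · exact ⟨_, _, a.symm, h.bound_of_not a.symm (by rwa [G_base₁])⟩
  obtain ⟨δ, μ, b, c⟩ := this
  have := edge_ind (P := fun δ μ => Nat.card ↥(G[δ] ⊓ G[μ]) ≤ 128) b c (by rwa [inf_comm])
    (fun g a b c => by rwa [← conj_G, ← conj_G, ← conj_inf, card_conj]) a
  rwa [G_base₁, G_base₂] at this

end Cfsg.Lib.Amalgam
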