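import Cfsg.Agent.Lib.Amalgam.GEven

/-! Point-line `(S₃,S₃)`-amalgams: the involutions `z_p` and critical arcs for odd `b`. -/

set_option autoImplicit false
set_option linter.unusedSectionVars false
set_option linter.style.haveILetI false

namespace Cfsg.Lib.Amalgam

open Cfsg Subgroup Transfer Cfsg.Lib.Core Cfsg.Lib.BG Cfsg.Lib.Loc
open scoped commutatorElement

variable {X : Type*} [Group X] {H K T A R : Subgroup X} {x y g t r r' : X}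
variable {M₁ M₂ : Subgroup X} {δ μ ν ε γ α α' β p q u v l m n : CosetVertex M₁ M₂}
  {w w' : ℤ → CosetVertex M₁ M₂} {i j : ℤ}

local notation "G[" δ "]" => MulAction.stabilizer X δ
local notation "Q[" δ "]" => vertexQ 2 δ
local notation "Z[" δ "]" => vertexZ 2 δ
local notation "Γ" => cosetGraph M₁ M₂
local notation "𝔟" => criticalDistance 2 M₁ M₂

open Classical in
/-- The involution in `Z_p` for a point `p`. -/
noncomputable def zz (p : CosetVertex M₁ M₂) : X := if h : ∃ x ∈ Z[p], x ≠ 1 then h.choose else 1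

/-- `r` is a product of involutions on the two lines through `p` other than `l`. -/
def RR (p l : CosetVertex M₁ M₂) (r : X) : Prop := ∃ m m' u u', (Γ).Adj p m ∧ (Γ).Adj p m' ∧ m ≠ l ∧ m' ≠ l ∧
  m' ≠ m ∧ (Γ).Adj m u ∧ (Γ).Adj m' u' ∧ u ≠ p ∧ u' ≠ p ∧ r = zz u * zz u'

namespace S3Pt

variable (h : S3Pt M₁ M₂)
include h

theorem z_spec (p : CosetVertex M₁ M₂) : zz p ∈ Z[p] ∧ zz p ≠ 1 := by
  have := exists_ne_one (Z_ne_bot h.ch p)
  rw [zz, dif_pos this]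
  exact this.choose_spec

theorem z_mem (p : CosetVertex M₁ M₂) : zz p ∈ Z[p] := (h.z_spec p).1

theorem z_ne (p : CosetVertex M₁ M₂) : zz p ≠ 1 := (h.z_spec p).2

theorem z_sq (p : CosetVertex M₁ M₂) : zz p * zz p = 1 := h.Z_sq (h.z_mem p)

theorem z_inv (p : CosetVertex M₁ M₂) : (zz p)⁻¹ = zz p := h.Z_inv (h.z_mem p)

theorem eq_z (hp : Pt p) (hx : x ∈ Z[p]) : x = 1 ∨ x = zz p :=
  or_iff_not_imp_left.2 fun e => h.k_one hp hx (h.z_mem p) e (h.z_ne p)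

theorem z_smul (hp : Pt p) (g : X) : zz (g • p) = g * zz p * g⁻¹ :=
  ((h.eq_z (h.Pt_smul g hp) (h.conj_mem_Z g (h.z_mem p))).resolve_left (by simpa using h.z_ne p)).symm

theorem z_comm (hp : Pt p) (hg : g ∈ G[p]) : zz p * g = g * zz p := h.Zp_comm hp (h.z_mem p) hg

theorem z_ln (hp : Pt p) (ha : (Γ).Adj α p) : zz p ∈ Z[α] := h.Zp_le hp ha (h.z_mem p)

theorem z_not_mem (hu : Pt u) (ha : (Γ).Adj α u) (hb : (Γ).Adj α v) (hne : u ≠ v) : zz u ∉ Z[v] := fun e =>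
  h.z_ne u (h.inter hu (h.pt2 ha.symm hb hu) ha hb hne (h.z_mem u) e)

theorem z_ne_z (hu : Pt u) (ha : (Γ).Adj α u) (hb : (Γ).Adj α v) (hne : u ≠ v) : zz u ≠ zz v := fun e =>
  h.z_not_mem hu ha hb hne (e ▸ h.z_mem v)

theorem Z_line (hu : Pt u) (ha : (Γ).Adj α u) (hb : (Γ).Adj α v) (hne : u ≠ v) (hx : x ∈ Z[α]) :
    x = 1 ∨ x = zz u ∨ x = zz v ∨ x = zz u * zz v := by
  obtain ⟨a, h1, c, h2, rfl⟩ := h.decomp (h.ln ha.symm hu) ha hb hne hx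
  rcases h.eq_z hu h1 with rfl | rfl <;> rcases h.eq_z (h.pt2 ha.symm hb hu) h2 with rfl | rfl <;> simp

theorem mem_Q_of_z (hu : Pt u) (ha : (Γ).Adj α u) (hb : (Γ).Adj α v) (hne : v ≠ u) (h1 : g ∈ G[α]) (h2 : g ∈ G[u])
    (e : zz v * g = g * zz v) : g ∈ Q[α] := by_contra fun hq => h.z_ne v
  (h.eq_one_of (h.pt2 ha.symm hb hu) hb (h.z_mem v) h1 (h.not_mem_G ha hb hne.symm h1 h2 hq) e)

theorem conj_z (hu : Pt u) (ha : (Γ).Adj α u) (hb : (Γ).Adj α v) (hne : v ≠ u) (h1 : g ∈ G[α]) (h2 : g ∈ G[u])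
    (hq : g ∉ Q[α]) : g * zz v * g⁻¹ = zz u * zz v := by
  have h3 := h.z_ln (h.pt2 ha.symm hb hu) hb
  rcases h.eq_z hu (h.comm_mem ha h3 h1 h2) with e | e
  · rw [mul_inv_eq_one, mul_inv_eq_iff_eq_mul] at e
    exact (hq (h.mem_Q_of_z hu ha hb hne h1 h2 e)).elim
  · rw [h.z_comm hu (h.Q_le ha (h.ZQ _ h3)), ← e, h.z_inv, ← mul_assoc, ← mul_assoc, ← mul_assoc, h.z_sq, one_mul]

theorem conj_z' (hu : Pt u) (hb : (Γ).Adj α u) (hq : g ∈ Q[α]) : g * zz u * g⁻¹ = zz u := by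
  rw [← h.Z_comm (h.z_ln hu hb) hq, mul_inv_cancel_right]

theorem z_same (hp : Pt p) (ha : (Γ).Adj m p) (hb : (Γ).Adj m u) (hc : (Γ).Adj m v) (h1 : u ≠ p) (h2 : v ≠ p) :
    zz v = zz u ∨ zz v = zz p * zz u :=
  ((h.Z_line hp ha hb h1.symm (h.z_ln (h.pt2 ha.symm hc hp) hc)).resolve_left (h.z_ne v)).resolve_left
    (h.z_ne_z (h.pt2 ha.symm hc hp) hc ha h2)

theorem pt_iff (hw : Arc w) (hi : Pt (w i)) (k : ℤ) : Pt (w (i + k)) ↔ k % 2 = 0 := by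
  induction k using Int.induction_on with
  | zero => simpa using hi
  | succ n ih => rw [h.ty _ _ (hw.adj' _ (i + n)), ih]; omega
  | pred n ih => rw [h.ty _ _ (hw.adj _ (i + -n)), ih]; omega

theorem pta (hw : Arc w) (hi : Pt (w i)) (j : ℤ) (e : (j - i) % 2 = 0 := by omega) : Pt (w j) := by
  have := (h.pt_iff hw hi (j - i)).2 e
  rwa [add_sub_cancel] at this

theorem lna (hw : Arc w) (hi : Pt (w i)) (j : ℤ) (e : (j - i) % 2 = 1 := by omega) : ¬ Pt (w j) := fun c => by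
  have := (h.pt_iff hw hi (j - i)).1 (by rwa [add_sub_cancel])
  omega

theorem orb_edge (hp : Pt p) (hq : Pt q) (ha : (Γ).Adj p l) (hb : (Γ).Adj q m) : ∃ g : X, g • p = q ∧ g • l = m := by
  obtain ⟨g, e | ⟨rfl, -⟩⟩ := exists_smul_edge ha hb
  · exact ⟨g, e⟩
  · exact (h.ln ha hp ((h.Pt_smul_iff g).1 hq)).elim

theorem RR_smul (hp : Pt p) (hr : RR p l r) (g : X) : RR (g • p) (g • l) (g * r * g⁻¹) := by
  obtain ⟨m, m', u, u', a1, a2, n1, n2, n3, a3, a4, n4, n5, rfl⟩ := hr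
  have := fun {a b : CosetVertex M₁ M₂} (e : a ≠ b) => (MulAction.injective g).ne e
  exact ⟨_, _, _, _, adj_smul g a1, adj_smul g a2, this n1, this n2, this n3, adj_smul g a3, adj_smul g a4, this n4,
    this n5, by rw [h.z_smul (h.pt2 a1 a3 hp), h.z_smul (h.pt2 a2 a4 hp)]; group⟩

theorem RR_mem (hp : Pt p) (hr : RR p l r) (hK : ∀ m, (Γ).Adj p m → Z[m] ≤ K) : r ∈ K := by
  obtain ⟨m, m', u, u', a1, a2, -, -, -, a3, a4, -, -, rfl⟩ := hr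
  exact mul_mem (hK _ a1 (h.z_ln (h.pt2 a1 a3 hp) a3)) (hK _ a2 (h.z_ln (h.pt2 a2 a4 hp) a4))

theorem RR_not_mem (hp : Pt p) (hr : RR p l r) : r ∉ Z[p] := fun e => by
  obtain ⟨m, m', u, u', a1, a2, -, -, n3, a3, a4, n4, -, rfl⟩ := hr
  have hu := h.pt2 a1 a3 hp
  refine h.z_not_mem hu a3 a1.symm n4 (h.pu hp a1 a2 n3.symm (h.z_ln hu a3) ?_)
  simpa using mul_mem (h.Zp_le hp a2.symm e) (inv_mem (h.z_ln (h.pt2 a2 a4 hp) a4))

theorem RR_comm (hq : Pt q) (ha : (Γ).Adj q l) (hb : (Γ).Adj q δ) (hne : δ ≠ l) (hc : (Γ).Adj δ u) (hu : u ≠ q)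
    (h1 : x ∈ G[q]) (h2 : x ∈ G[l]) (h3 : x ∉ Q[q]) : RR q l (x * zz u * x⁻¹ * (zz u)⁻¹) :=
  ⟨_, _, _, _, adj_of_G h1 hb, hb, smul_ne_of_G h2 hne, hne, Ne.symm (h.not_mem_G ha hb hne.symm h1 h2 h3),
    adj_smul x hc, hc, smul_ne_of_G h1 hu, hu, by rw [h.z_smul (h.pt2 hb hc hq), h.z_inv]⟩

end S3Pt

/-- The case of odd critical distance. -/
structure S3Od (M₁ M₂ : Subgroup X) : Prop extends S3Pt M₁ M₂ where
  cr : ∃ w : ℤ → CosetVertex M₁ M₂, Arc w ∧ ¬ Pt (w 0) ∧ Pt (w (criticalDistance 2 M₁ M₂)) ∧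
    ¬ vertexZ 2 (w 0) ≤ vertexQ 2 (w (criticalDistance 2 M₁ M₂))

namespace S3Od

variable (h : S3Od M₁ M₂)
include h

theorem b3 : 3 ≤ 𝔟 := by
  obtain ⟨w, hw, h1, h2, -⟩ := h.cr
  exact h.three_le hw h1 h2

theorem odd : (𝔟 : ℤ) % 2 = 1 := by
  obtain ⟨w, hw, h1, h2, -⟩ := h.cr
  exact by_contra fun e => h1 (h.pta hw h2 0)

theorem ho_all {n : ℤ} (hα : ¬ Pt α) (ho : HO n α) (hn : n ≤ 2 * 𝔟) (δ : CosetVertex M₁ M₂) : HO n δ := by
  obtain ⟨w, hw, -, h2, h3⟩ := h.cr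
  exact h.ho_of hα h2 ho ((h.ho_crit hw h3).mono hn) δ

theorem tr_four : Tr M₁ M₂ 4 := by
  obtain ⟨w, -, h1, -⟩ := h.cr
  exact h.tr_of (h.ho_all h1 (h.ho_three h1) (by have := h.b3; omega)) 4 (by omega) (by omega)

theorem exists_cr : ∃ w : ℤ → CosetVertex M₁ M₂, Arc w ∧ Pt (w 0) ∧ zz (w 0) ∉ Q[w (𝔟 + 1)] := by
  obtain ⟨w, hw, h1, -, h3⟩ := h.cr
  have := h.b3
  have a := hw.adj' 0 (-1)
  refine ⟨_, hw.shift (-1), h.pt a h1, fun e => h3 fun x hx => ?_⟩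
  simp only [add_neg_cancel_right] at e
  have e' : zz (w 1) ∈ Q[w 𝔟] := h.ZQa hw 2 _ (by omega) (h.z_ln (h.pt (hw.adj 0 1) h1) (hw.adj' 2 1))
  rcases h.Z_line (h.pt a h1) a (hw.adj 0 1) (hw.ne _ _) hx with rfl | rfl | rfl | rfl
  exacts [one_mem _, e, e', mul_mem e e']

theorem zz_comm (hp : Pt p) (ha : (Γ).Adj p m) (hb : (Γ).Adj p n) (hc : (Γ).Adj m u) (hd : (Γ).Adj n v) :
    zz u * zz v = zz v * zz u :=
  h.Z_comm (h.z_ln (h.pt2 ha hc hp) hc) (h.ZQn h.b3 hb ha (h.z_ln (h.pt2 hb hd hp) hd))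

theorem RR_inv (hp : Pt p) (hr : RR p l r) : r⁻¹ = r := by
  obtain ⟨m, m', u, u', a1, a2, -, -, -, a3, a4, -, -, rfl⟩ := hr
  rw [mul_inv_rev, h.z_inv, h.z_inv, h.zz_comm hp a1 a2 a3 a4]

theorem RR_eq (hp : Pt p) (hl : (Γ).Adj p l) (hr : RR p l r) (hr' : RR p l r') : r' = r ∨ r' = zz p * r := by
  obtain ⟨m, m', u, u', a1, a2, n1, n2, n3, a3, a4, n4, n5, rfl⟩ := hr
  have key : ∀ v v', (Γ).Adj m v → (Γ).Adj m' v' → v ≠ p → v' ≠ p →
      zz v * zz v' = zz u * zz u' ∨ zz v * zz v' = zz p * (zz u * zz u') := fun v v' b1 b2 c1 c2 => by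
    have e := h.zz_comm hp a1 a1 a3 a1.symm
    rcases h.z_same hp a1.symm a3 b1 n4 c1 with e1 | e1 <;> rcases h.z_same hp a2.symm a4 b2 n5 c2 with e2 | e2 <;>
      rw [e1, e2]
    · exact Or.inl rfl
    · exact Or.inr (by rw [← mul_assoc, e, mul_assoc])
    · exact Or.inr (mul_assoc _ _ _)
    · exact Or.inl (by rw [← e, mul_assoc, ← mul_assoc (zz p), h.z_sq, one_mul])
  obtain ⟨k, k', v, v', b1, b2, c1, c2, c3, b3, b4, c4, c5, rfl⟩ := hr'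
  rcases h.three' hl a1 a2 n1 n2 n3 b1 with rfl | rfl | rfl
  · exact (c1 rfl).elim
  · rcases h.three' hl a1 a2 n1 n2 n3 b2 with rfl | rfl | rfl
    exacts [(c2 rfl).elim, (c3 rfl).elim, key _ _ b3 b4 c4 c5]
  · rcases h.three' hl a1 a2 n1 n2 n3 b2 with rfl | rfl | rfl
    exacts [(c2 rfl).elim, h.zz_comm hp b1 b2 b3 b4 ▸ key _ _ b4 b3 c5 c4, (c3 rfl).elim]

theorem RR_conj (hp : Pt p) (hl : (Γ).Adj p l) (hr : RR p l r) (h1 : g ∈ G[p]) (h2 : g ∈ G[l]) :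
    g * r * g⁻¹ = r ∨ g * r * g⁻¹ = zz p * r := by
  have := h.RR_smul hp hr g
  rw [mem_G.1 h1, mem_G.1 h2] at this
  exact h.RR_eq hp hl hr this

theorem RR_move (hp : Pt p) (hl : (Γ).Adj p l) (hr : RR p l r) (hm : (Γ).Adj p m) (hn : (Γ).Adj p n) (n1 : m ≠ l)
    (n2 : n ≠ l) (n3 : n ≠ m) (h1 : t ∈ Q[p]) (h2 : t ∈ Q[m]) (h3 : t ∉ Q[n]) : t * r * t⁻¹ = zz p * r := by
  obtain ⟨u, a1, c1⟩ := h.exists_ne hm.symm
  obtain ⟨v, a2, c2⟩ := h.exists_ne hn.symm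
  have e : t * (zz u * zz v) * t⁻¹ = zz p * (zz u * zz v) := by
    rw [show t * (zz u * zz v) * t⁻¹ = t * zz u * t⁻¹ * (t * zz v * t⁻¹) by group, h.conj_z' (h.pt2 hm a1 hp) a1 h2,
      h.conj_z hp hn.symm a2 c2 (h.Q_le hn h1) (Q_le_G 2 _ h1) h3, ← mul_assoc, h.zz_comm hp hm hm a1 hm.symm,
      mul_assoc]
  rcases h.RR_eq hp hl ⟨m, n, u, v, hm, hn, n1, n2, n3, a1, a2, c1, c2, rfl⟩ hr with rfl | rfl
  · exact e
  · rw [← mul_assoc t, ← h.z_comm hp (Q_le_G 2 _ h1), mul_assoc (zz p), mul_assoc (zz p), e]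

/-- The commutator of the two end involutions of a critical arc. -/
theorem RR_arc (hw : Arc w) (i j : ℤ) (hi : Pt (w i)) (hc : zz (w i) ∉ Q[w j]) (e : j = i + 𝔟 + 1 := by omega) :
    RR (w j) (w (j - 1)) (zz (w i) * zz (w (j + 2)) * (zz (w i))⁻¹ * (zz (w (j + 2)))⁻¹) := by
  have := h.odd
  have a := h.z_ln hi (hw.adj' (i + 1) i)
  exact h.RR_comm (h.pta hw hi j) (hw.adj' _ _) (hw.adj _ (j + 1)) (hw.ne' _ _) (hw.adj _ _) (hw.ne' _ _)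
    (h.ZGa hw _ _ (by omega) a) (h.ZGa hw _ _ (by omega) a) hc

theorem all_three (hb : 𝔟 = 3) (hw : Arc w) (i j : ℤ) (hi : Pt (w i)) (e : j = i + 4 := by omega) :
    zz (w i) ∉ Q[w j] := by
  obtain ⟨v, hv, h1, h2⟩ := h.exists_cr
  obtain ⟨g, hg⟩ := h.tr_four v w 0 i hv hw (h.orb (iff_of_true h1 hi))
  have e0 := hg 0 le_rfl (by omega)
  rw [add_zero, add_zero] at e0
  rwa [e, ← hg 4 (by omega) le_rfl, ← e0, h.z_smul h1, conj_mem_Q, show (0 : ℤ) + 4 = 𝔟 + 1 by omega]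

theorem sym (hw : Arc w) (i j : ℤ) (hi : Pt (w i)) (hc : zz (w i) ∉ Q[w j]) (e : j = i + 𝔟 + 1 := by omega) :
    zz (w (j + 2)) ∉ Q[w (i + 2)] := fun hv => by
  have := h.odd
  have := h.b3
  by_cases hb : 𝔟 = 3
  · exact h.all_three hb (hw.rev 0) (-(j + 2)) (-(i + 2)) (by simpa only [zero_sub, neg_neg] using h.pta hw hi _)
      (by omega) (by simpa only [zero_sub, neg_neg] using hv)
  have hr := h.RR_arc hw i j hi hc
  have hq := h.pta hw hi j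
  have hp := h.pta hw hi (i + 2)
  have v1 := h.z_ln (h.pta hw hi (j + 2)) (hw.adj (j + 1) (j + 2))
  have v2 := h.Q_le (hw.adj' _ (i + 1)) hv
  have v3 : zz (w (j + 2)) ∉ Q[w (i + 1)] := fun c => h.RR_not_mem hq hr (by
    rw [h.Z_comm (h.z_ln hi (hw.adj' (i + 1) i)) c]; simp)
  have e1 := h.conj_z hp (hw.adj (i + 1) _) (hw.adj' _ i) (hw.ne _ _) v2 (Q_le_G 2 _ hv) v3
  rw [show ∀ a v : X, a * v * a⁻¹ * v⁻¹ = a * (v * a * v⁻¹)⁻¹ from fun a v => by group, e1, mul_inv_rev,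
    mul_inv_cancel_left, h.z_inv] at hr
  have ho := h.ho_all (n := 𝔟 - 2) (h.lna hw hi (i + 1)) ⟨_, -(i + 1), hw.rev 0, by simp only [zero_sub, neg_neg], _,
    fun k c d => by
      rcases d.eq_or_lt with rfl | d
      exacts [by simpa only [zero_sub, neg_neg] using v2, h.ZGa hw _ _ (by omega) v1],
    by simpa only [zero_sub, neg_neg] using v3⟩ (by omega)
  obtain ⟨t, t1, t2⟩ := h.opn_rev ho hw (i + 3) j (by omega) (by omega)
  have hx := h.pta hw hi (i + 4)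
  have e2 := h.conj_z hx (hw.adj (i + 3) _) (hw.adj' _ (i + 2)) (hw.ne _ _) (t1 _ le_rfl (by omega))
    (t1 _ (by omega) (by omega)) t2
  rcases h.RR_conj hq (hw.adj' _ _) hr (t1 _ (by omega) le_rfl) (t1 _ (by omega) (by omega)) with c | c <;>
    rw [e2] at c
  · exact h.z_ne _ (mul_eq_right.1 c)
  · exact h.z_ne _ (h.co_arc ho hw (i + 4) j hx hq (by omega) (by omega) (h.z_mem _)
      (mul_right_cancel c ▸ h.z_mem _))

theorem sym' (hw : Arc w) (i j : ℤ) (hi : Pt (w i)) (hc : zz (w (j + 2)) ∉ Q[w (i + 2)])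
    (e : j = i + 𝔟 + 1 := by omega) : zz (w i) ∉ Q[w j] := by
  have := h.odd
  have := h.sym (hw.rev 0) (-(j + 2)) (-(i + 2)) (by simpa only [zero_sub, neg_neg] using h.pta hw hi _)
    (by simpa only [zero_sub, neg_neg] using hc)
  simpa only [show 0 - (-(i + 2) + 2) = i by omega, show 0 - (-(j + 2) + 2) = j by omega] using this

theorem RR_arc' (hw : Arc w) (i j : ℤ) (hi : Pt (w i)) (hc : zz (w i) ∉ Q[w j]) (e : j = i + 𝔟 + 1 := by omega) :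
    RR (w (i + 2)) (w (i + 3)) (zz (w i) * zz (w (j + 2)) * (zz (w i))⁻¹ * (zz (w (j + 2)))⁻¹) := by
  have := h.odd
  have a := h.z_ln (h.pta hw hi (j + 2)) (hw.adj (j + 1) _)
  have hp := h.pta hw hi (i + 2)
  have := h.RR_comm hp (hw.adj _ (i + 3)) (hw.adj' _ (i + 1)) (hw.ne _ _) (hw.adj' _ i) (hw.ne _ _)
    (h.ZGa hw _ _ (by omega) a) (h.ZGa hw _ _ (by omega) a) (h.sym hw i j hi hc)
  rw [← h.RR_inv hp this] at this
  simpa only [mul_inv_rev, inv_inv, mul_assoc] using this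

theorem cr_congr (hw : Arc w) (hw' : Arc w') (i j : ℤ) (hi : Pt (w i)) (hc : zz (w i) ∉ Q[w j])
    (ha : ∀ k, i + 2 ≤ k → k ≤ j → w' k = w k) (e : j = i + 𝔟 + 1 := by omega) : zz (w' i) ∉ Q[w' j] := by
  have := h.b3
  obtain ⟨v, hv, v1, v2⟩ := hw.splice hw' (j - 1) (ha _ (by omega) (by omega)).symm (ha _ (by omega) (by omega)).symm
  have := h.sym hv i j (by rwa [v1 i (by omega)]) (by rwa [v1 i (by omega), v1 j (by omega)])
  rw [v2 (j + 2) (by omega), v1 (i + 2) (by omega), ← ha _ le_rfl (by omega)] at this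
  exact h.sym' hw' i j (h.pta hw' (ha _ le_rfl (by omega) ▸ h.pta hw hi (i + 2)) i) this

theorem all_cr (ht : Tr M₁ M₂ (𝔟 - 1)) (hw : Arc w) (i j : ℤ) (hi : Pt (w i)) (e : j = i + 𝔟 + 1 := by omega) :
    zz (w i) ∉ Q[w j] := by
  obtain ⟨v, hv, h1, h2⟩ := h.exists_cr
  obtain ⟨g, hg⟩ := ht v w 2 (i + 2) hv hw (h.orb (iff_of_true (h.pta hv h1 2) (h.pta hw hi _)))
  refine h.cr_congr ((hv.shift (-i)).smul g) hw i j (by simpa using h.Pt_smul g h1) ?_ fun k a b => ?_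
  · simpa only [add_neg_cancel, h.z_smul h1, conj_mem_Q, show j + -i = 𝔟 + 1 by omega] using h2
  · have := hg (k - i - 2) (by omega) (by omega)
    rw [show i + 2 + (k - i - 2) = k by omega, show 2 + (k - i - 2) = k + -i by omega] at this
    exact this.symm

/-- Critical arcs can be continued. -/
theorem ext (hw : Arc w) (i j : ℤ) (hi : Pt (w i)) (hc : zz (w i) ∉ Q[w j]) (e : j = i + 𝔟 + 1 := by omega) :
    ∃ v, Arc v ∧ (∀ k, i + 1 ≤ k → v k = w k) ∧ zz (v (i - 2)) ∉ Q[v (j - 2)] := by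
  have := h.odd
  have := h.b3
  have hα := h.lna hw hi (i + 1)
  by_cases ho : HO (𝔟 - 2) (w (i + 1))
  · exact ⟨w, hw, fun _ _ => rfl, h.all_cr (h.tr_of (h.ho_all hα ho (by omega)) _ (by omega) (by omega)) hw _ _
      (h.pta hw hi _)⟩
  have star : ∀ k g, (k - i) % 2 = 1 → Fix g w (k - (𝔟 - 2)) k → g ∈ Q[w k] := fun k g a b => by_contra fun c => by
    obtain ⟨x, hx⟩ := h.orb (iff_of_false (h.lna hw hi k) hα)
    exact ho (hx ▸ HO.smul ⟨w, k, hw, rfl, g, b, c⟩ x)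
  by_contra hn
  push Not at hn
  have ap := hw.adj (i + 1) (i + 2)
  set S := {m | ∃ y, (Γ).Adj (w (i + 1)) y ∧ (Γ).Adj y m}
  have k1 : ∀ m ∈ S, Z[m] ≤ Q[w (j - 2)] := by
    rintro m ⟨y, a1, a2⟩ f hf
    by_cases c1 : y = w (i + 1 + 1)
    · exact h.ZQ1 hw (c1 ▸ a2) _ (by omega) hf
    by_cases c2 : m = w (i + 1)
    · exact h.ZQa hw _ _ (by omega) (c2 ▸ hf)
    obtain ⟨v, hv, v1, v2⟩ := h.repl' hw (i + 1) a1 c1
    rw [add_sub_cancel_right] at v2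
    obtain ⟨v', hv', v3, v4⟩ := h.repl' hv i (v2 ▸ a2) (by rwa [v1 _ le_rfl])
    have c3 := hn v' hv' fun k a => (v3 k (by omega)).trans (v1 k a)
    rw [v3 (j - 2) (by omega), v1 (j - 2) (by omega)] at c3
    have c4 : zz y ∈ Q[w (j - 2)] := h.ZQa hw _ _ (by omega) (h.z_ln (h.pt a1 hα) a1)
    rcases h.Z_line (h.pt a1 hα) a2.symm (v4 ▸ hv'.adj' (i - 1) (i - 2)) (by
      rw [← v2, ← v3 _ le_rfl]; exact hv'.ne' _ _) hf with rfl | rfl | rfl | rfl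
    exacts [one_mem _, c4, c3, mul_mem c4 c3]
  have k2 : ∀ m ∈ S, ∀ f ∈ Z[m], Fix f w (i + 1) j := by
    rintro m hm f hf
    have c : Fix f w (i + 1) (j - 1) := fun k a b => by
      rcases (show k = j - 1 ∨ k = j - 2 ∨ k ≤ j - 3 by omega) with rfl | rfl | c
      · exact h.Q_le (hw.adj _ _) (k1 m hm hf)
      · exact Q_le_G 2 _ (k1 m hm hf)
      · obtain ⟨y, a1, a2⟩ := hm
        exact Q_le_G 2 _ (h.ZQ2 hw a1 a2 k (by omega) hf)
    intro k a b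
    rcases b.eq_or_lt with rfl | b
    exacts [h.Q_le (hw.adj _ _) (star _ f (by omega) fun k a b => c k (by omega) b), c k a (by omega)]
  have v1 := h.z_ln (h.pta hw hi (j + 2)) (hw.adj (j + 1) (j + 2))
  have k3 : ∀ f, Fix f w (i + 1) j → f ∈ Q[w j] → zz (w (j + 2)) * f = f * zz (w (j + 2)) := fun f a b =>
    h.Z_comm v1 (star _ f (by omega) fun k c d => by
      rcases d.eq_or_lt with rfl | d
      exacts [h.Q_le (hw.adj _ _) b, a k (by omega) (by omega)])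
  have s1 : w (i + 1) ∈ S := ⟨_, ap, ap.symm⟩
  have a1 := h.z_ln hi (hw.adj' (i + 1) i)
  have v2 := h.ZGa hw _ (i + 2) (by omega) v1
  have n1 : G[w (i + 1)] ≤ 𝐍(ZS S) := h.norm_ZS fun g hg m ⟨y, a, b⟩ => ⟨_, adj_of_G hg a, adj_smul g b⟩
  have n2 : zz (w (j + 2)) ∈ 𝐍(ZS S) := gs_norm_of_inv (h.z_sq _) (conj_mem_ZS fun m hm f hf => by
    by_cases c : f ∈ Q[w j]
    · rw [k3 f (k2 m hm f hf) c, mul_inv_cancel_right]; exact le_ZS hm hf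
    have f1 := k2 m hm f hf
    have f2 := k2 _ s1 _ a1
    have := k3 _ (fun k a b => mul_mem (inv_mem (f2 k a b)) (f1 k a b)) (h.mul_mem (hw.adj' j (j - 1))
      ⟨f2 _ (by omega) le_rfl, f2 _ (by omega) (by omega)⟩ ⟨f1 _ (by omega) le_rfl, f1 _ (by omega) (by omega)⟩ hc c)
    rw [show ∀ v : X, v * f * v⁻¹ = v * zz (w i) * v⁻¹ * (v * ((zz (w i))⁻¹ * f) * v⁻¹) from fun v => by group, this,
      mul_inv_cancel_right]
    exact mul_mem (le_ZS (S := S) ⟨_, ap, adj_of_G v2 ap.symm⟩ (h.conj_mem_Z _ a1))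
      (mul_mem (inv_mem (le_ZS s1 a1)) (le_ZS hm hf)))
  exact Z_ne_bot h.ch _ (eq_bot_mono (h.eq_bot' ap (ZS_le fun m hm f hf => ⟨k2 m hm f hf _ le_rfl (by omega),
    k2 m hm f hf _ (by omega) (by omega)⟩) n1 (h.gen ap.symm (inf_le_right.trans n1) v2 n2 (h.not_mem_G
      (hw.adj _ (i + 3)) ap.symm (hw.ne' _ _) v2 (h.ZGa hw _ _ (by omega) v1) (h.sym hw i j hi hc)))) (le_ZS s1))

end S3Od

end Cfsg.Lib.Amalgam
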