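import Cfsg.Agent.Lib.Amalgam.GArc

/-! `(S₃,S₃)`-amalgams of characteristic 2 with `Ω₁Z(T)` central in exactly one vertex group (points and lines). -/

set_option autoImplicit false
set_option linter.unusedSectionVars false
set_option linter.style.haveILetI false

namespace Cfsg.Lib.Amalgam

open Cfsg Subgroup Transfer Cfsg.Lib.Core Cfsg.Lib.BG Cfsg.Lib.Loc
open scoped commutatorElement

variable {X : Type*} [Group X] {H K T A R : Subgroup X} {x y z g t : X}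
variable {M₁ M₂ : Subgroup X} {δ μ ν ε γ α α' β p q u v : CosetVertex M₁ M₂} {w w' : ℤ → CosetVertex M₁ M₂}
  {i j : ℤ}

local notation "G[" δ "]" => MulAction.stabilizer X δ
local notation "Q[" δ "]" => vertexQ 2 δ
local notation "Z[" δ "]" => vertexZ 2 δ
local notation "Γ" => cosetGraph M₁ M₂
local notation "𝔟" => criticalDistance 2 M₁ M₂

/-- The points: vertices with `Z_δ` central in `G_δ`. -/
def Pt (δ : CosetVertex M₁ M₂) : Prop := G[δ] ≤ 𝐂(Z[δ])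

/-- The subgroup generated by the `Z_δ`, `δ ∈ S`. -/
def ZS (S : Set (CosetVertex M₁ M₂)) : Subgroup X := ⨆ δ ∈ S, Z[δ]

theorem le_ZS {S : Set (CosetVertex M₁ M₂)} (h : δ ∈ S) : Z[δ] ≤ ZS S := le_iSup₂_of_le δ h le_rfl

theorem ZS_le {S : Set (CosetVertex M₁ M₂)} (h : ∀ δ ∈ S, Z[δ] ≤ K) : ZS S ≤ K := iSup₂_le h

theorem conj_mem_ZS {S : Set (CosetVertex M₁ M₂)} (h : ∀ δ ∈ S, ∀ y ∈ Z[δ], x * y * x⁻¹ ∈ ZS S) :
    ∀ y ∈ ZS S, x * y * x⁻¹ ∈ ZS S :=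
  ZS_le (K := (ZS S).comap (MulAut.conj x).toMonoidHom) h

namespace S3Ch

variable (h : S3Ch M₁ M₂)
include h

theorem conj_mem_Z (g : X) (hz : z ∈ Z[δ]) : g * z * g⁻¹ ∈ Z[g • δ] := by
  rw [← h.conj_Z]; exact conj_mem_conj.2 hz

theorem norm_ZS {S : Set (CosetVertex M₁ M₂)} (hH : ∀ g ∈ H, ∀ δ ∈ S, g • δ ∈ S) : H ≤ 𝐍(ZS S) :=
  norm_of_conj_le fun g hg => by
    rintro _ ⟨y, hy, rfl⟩
    exact conj_mem_ZS (fun δ a _ b => le_ZS (hH g hg δ a) (h.conj_mem_Z g b)) y hy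

theorem Pt_smul (g : X) (hp : Pt δ) : Pt (g • δ) := by
  rw [Pt, ← conj_G, ← h.conj_Z, ← conj_centralizer]
  exact conj_mono g hp

theorem Pt_smul_iff (g : X) : Pt (g • δ) ↔ Pt δ := ⟨fun e => by simpa using h.Pt_smul g⁻¹ e, h.Pt_smul g⟩

theorem ZG' (δ : CosetVertex M₁ M₂) : Z[δ] ≤ G[δ] := (h.ZQ δ).trans (Q_le_G 2 δ)

theorem Z_pt (hp : Pt p) (ha : (Γ).Adj α p) : Z[p] ≤ omegaOneCenter 2 (G[α] ⊓ G[p]) := fun _ hz =>
  mem_oz.2 ⟨⟨⟨h.Q_le ha.symm (h.ZQ p hz), h.ZG' p hz⟩, cent_symm (inf_le_right.trans hp) hz⟩, by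
    rw [pow_two, h.Z_sq hz]⟩

theorem Zp_le (hp : Pt p) (ha : (Γ).Adj α p) : Z[p] ≤ Z[α] := (h.Z_pt hp ha).trans (h.oz_le_Z ha)

theorem Zp_comm (hp : Pt p) (hz : z ∈ Z[p]) (hg : g ∈ G[p]) : z * g = g * z := mem_cent.1 (hp hg) z hz

theorem eq_one_of (hp : Pt u) (ha : (Γ).Adj α u) (hx : x ∈ Z[u]) (hg : g ∈ G[α]) (hg' : g ∉ G[u])
    (e : x * g = g * x) : x = 1 :=
  h.eq_one ha (oz_le _ (h.Z_pt hp ha hx)) (h.gen ha ((inf_le_right.trans hp).trans (cent_le_cent1 hx)) hg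
    (mem_cent1.2 e.symm) hg') (hp.trans (cent_le_cent1 hx))

theorem inter (hu : Pt u) (hv : Pt v) (ha : (Γ).Adj α u) (hb : (Γ).Adj α v) (hne : u ≠ v) (h1 : x ∈ Z[u])
    (h2 : x ∈ Z[v]) : x = 1 := by
  obtain ⟨g, hg, hq⟩ := h.exists_out hb
  exact h.eq_one_of hu ha h1 hg.1 (h.not_mem_G hb ha hne.symm hg.1 hg.2 hq) (h.Zp_comm hv h2 hg.2)

theorem cent_mem (ha : (Γ).Adj α u) (hz : z ∈ Z[α]) (h1 : y ∈ G[α]) (h2 : y ∈ G[u]) (hq : y ∉ Q[α])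
    (e : z * y = y * z) : z ∈ Z[u] := h.oz_le_Z' ha (h.mem_oz_of ha hz ⟨h1, h2⟩ hq e)

theorem comm_mem (ha : (Γ).Adj α u) (hz : z ∈ Z[α]) (h1 : y ∈ G[α]) (h2 : y ∈ G[u]) :
    z * y * z⁻¹ * y⁻¹ ∈ Z[u] := by
  by_cases hq : y ∈ Q[α]
  · rw [h.Z_comm hz hq]; simp
  have h3 := conj_mem_of_norm (h.norm_Z α h1) hz
  have h4 := h.Z_comm hz (mul_mem_of_relIndex_two (h.idx ha) ⟨h1, h2⟩ ⟨h1, h2⟩ hq hq)
  have h5 := h.Z_comm hz (h.ZQ α h3)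
  rw [h.Z_inv hz, show z * y * z * y⁻¹ = z * (y * z * y⁻¹) by group]
  refine h.cent_mem ha (mul_mem hz h3) h1 h2 hq ?_
  calc z * (y * z * y⁻¹) * y = y * z * y⁻¹ * z * y := by rw [h5]
    _ = y * z * y⁻¹ * (z * (y * y)) * y⁻¹ := by group
    _ = y * (z * (y * z * y⁻¹)) := by rw [h4]; group

theorem not_norm_Z (ha : (Γ).Adj δ μ) (hg : g ∈ G[δ]) (hg' : g ∉ G[μ]) : g ∉ 𝐍(Z[μ]) := fun e =>
  Z_ne_bot h.ch μ (h.eq_bot' ha (le_inf ((h.ZQ μ).trans (h.Q_le ha.symm)) (h.ZG' μ))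
    (h.gen ha (inf_le_right.trans (h.norm_Z μ)) hg e hg') (h.norm_Z μ))

theorem dist_arc (hw : Arc w) (i j : ℤ) : ((Γ).dist (w i) (w j) : ℤ) ≤ max (j - i) (i - j) := by
  rcases le_total i j with e | e
  · exact (h.dist_le hw e).trans (le_max_left _ _)
  · rw [SimpleGraph.dist_comm]; exact (h.dist_le hw e).trans (le_max_right _ _)

theorem ZQa (hw : Arc w) (i j : ℤ) (e : j - i < 𝔟 ∧ i - j < 𝔟 := by omega) : Z[w i] ≤ Q[w j] :=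
  h.lt (by have := h.dist_arc hw i j; omega)

theorem ZGa (hw : Arc w) (i j : ℤ) (e : j - i ≤ 𝔟 ∧ i - j ≤ 𝔟 := by omega) : Z[w i] ≤ G[w j] := by
  have := h.b_pos
  rcases lt_trichotomy i j with c | c | c
  · exact (h.ZQa hw i (j - 1)).trans (h.Q_le (hw.adj _ _))
  · exact c ▸ h.ZG' _
  · exact (h.ZQa hw i (j + 1)).trans (h.Q_le (hw.adj' _ _))

/-- `Z_δ ≤ Q_{w j}` for a neighbour `δ` of `w i`. -/
theorem ZQ1 (hw : Arc w) {i : ℤ} (ha : (Γ).Adj (w i) δ) (j : ℤ) (e : j - i + 1 < 𝔟 ∧ i - j + 1 < 𝔟 := by omega) :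
    Z[δ] ≤ Q[w j] := h.lt (by have := h.dist_arc hw i j; have := h.dist_adj ha (w j); omega)

theorem ZQ2 (hw : Arc w) {i : ℤ} (ha : (Γ).Adj (w i) δ) (hb : (Γ).Adj δ μ) (j : ℤ)
    (e : j - i + 2 < 𝔟 ∧ i - j + 2 < 𝔟 := by omega) : Z[μ] ≤ Q[w j] :=
  h.lt (by have := h.dist_arc hw i j; have := h.dist_adj ha (w j); have := h.dist_adj hb (w j); omega)

theorem ZQn (hb : 3 ≤ 𝔟) (ha : (Γ).Adj δ μ) (ha' : (Γ).Adj δ ν) : Z[μ] ≤ Q[ν] := h.lt (by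
  have := h.dist_adj ha ν
  rw [SimpleGraph.dist_eq_one_iff_adj.2 ha'] at this
  omega)

theorem ho_crit (hw : Arc w) (hc : ¬ Z[w 0] ≤ Q[w 𝔟]) : HO (2 * 𝔟) (w 𝔟) := by
  obtain ⟨z, hz, hq⟩ := SetLike.not_le_iff_exists.1 hc
  exact ⟨w, _, hw, rfl, z, fun k _ _ => h.ZGa hw 0 k (by omega) hz, hq⟩

theorem co (hu : Pt u) (hq : Pt q) (ha : (Γ).Adj α u) (hb : (Γ).Adj α v) (hne : u ≠ v) (h1 : g ∈ G[α])
    (h2 : g ∈ G[v]) (h3 : g ∈ G[q]) (hx : x ∈ Z[u]) (hx' : x ∈ Z[q]) (hx1 : x ≠ 1) : g ∈ Q[α] :=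
  by_contra fun e => hx1 (h.eq_one_of hu ha hx h1 (h.not_mem_G hb ha hne.symm h1 h2 e) (h.Zp_comm hq hx' h3))

theorem opn_rev {n : ℤ} (ho : ∀ δ : CosetVertex M₁ M₂, HO n δ) (hw : Arc w) (i j : ℤ) (h1 : i < j)
    (h2 : j - i ≤ n) : ∃ g, Fix g w i j ∧ g ∉ Q[w i] := by
  obtain ⟨g, hg, hq⟩ := h.opn_of ho (hw.rev 0) (-j) (-i) (by omega) (by omega)
  exact ⟨g, fun k a b => by simpa using hg (-k) (by omega) (by omega), by simpa using hq⟩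

/-- Points on a short arc have no common central element. -/
theorem co_arc {n : ℤ} (ho : ∀ δ : CosetVertex M₁ M₂, HO n δ) (hw : Arc w) (i j : ℤ) (hi : Pt (w i))
    (hj : Pt (w j)) (h1 : i + 2 ≤ j) (h2 : j - i - 1 ≤ n) (hx : x ∈ Z[w i]) (hx' : x ∈ Z[w j]) : x = 1 := by
  obtain ⟨g, hg, hq⟩ := h.opn_rev ho hw (i + 1) j (by omega) (by omega)
  exact by_contra fun e => hq (h.co hi hj (hw.adj' _ _) (hw.adj _ (i + 2)) (hw.ne _ _) (hg _ le_rfl (by omega))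
    (hg _ (by omega) h1) (hg _ (by omega) le_rfl) hx hx' e)

theorem ho_one (δ : CosetVertex M₁ M₂) : HO 1 δ := by
  obtain ⟨μ, a⟩ := exists_adj δ
  obtain ⟨w, hw, rfl, rfl⟩ := h.exists_arc a.symm
  obtain ⟨g, hg, hq⟩ := h.exists_out a
  refine ⟨w, 1, hw, rfl, g, fun k a b => ?_, hq⟩
  rcases (show k = 0 ∨ k = 1 by omega) with rfl | rfl
  exacts [hg.2, hg.1]

end S3Ch

/-- Exactly one end of every edge is a point. -/
structure S3Pt (M₁ M₂ : Subgroup X) : Prop extends S3Ch M₁ M₂ where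
  ty : ∀ δ μ : CosetVertex M₁ M₂, (cosetGraph M₁ M₂).Adj δ μ → (Pt δ ↔ ¬ Pt μ)

namespace S3Pt

variable (h : S3Pt M₁ M₂)
include h

theorem ln (ha : (Γ).Adj p α) (hp : Pt p) : ¬ Pt α := (h.ty _ _ ha).1 hp

theorem pt (ha : (Γ).Adj α p) (hα : ¬ Pt α) : Pt p := (h.ty _ _ ha.symm).2 hα

theorem pt2 (ha : (Γ).Adj p α) (hb : (Γ).Adj α u) (hp : Pt p) : Pt u := h.pt hb (h.ln ha hp)

theorem orb (e : Pt δ ↔ Pt μ) : ∃ g : X, g • δ = μ := by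
  obtain ⟨β, a⟩ := exists_adj δ
  obtain ⟨ν, b⟩ := exists_adj μ
  obtain ⟨g, ⟨c, -⟩ | ⟨rfl, -⟩⟩ := exists_smul_edge a b
  · exact ⟨g, c⟩
  · have := h.ty _ _ a
    rw [h.Pt_smul_iff] at e
    tauto

theorem ho_of {n : ℤ} (hα : ¬ Pt α) (hp : Pt p) (h1 : HO n α) (h2 : HO n p) (δ : CosetVertex M₁ M₂) : HO n δ := by
  by_cases e : Pt δ
  · obtain ⟨g, rfl⟩ := h.orb (iff_of_true hp e)
    exact h2.smul g
  · obtain ⟨g, rfl⟩ := h.orb (iff_of_false hα e)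
    exact h1.smul g

theorem nc (hα : ¬ Pt α) : NC α := by
  obtain ⟨p, a⟩ := exists_adj α
  refine h.NC_of a fun e => ?_
  obtain ⟨x, hx, hx1⟩ := exists_ne_one (Z_ne_bot h.ch p)
  have := h.Z_pt (h.pt a hα) a hx
  exact hx1 (h.eq_one a (oz_le _ this) (e.trans (cent_le_cent1 this)) ((h.pt a hα).trans (cent_le_cent1 hx)))

theorem decomp (hα : ¬ Pt α) (ha : (Γ).Adj α u) (hb : (Γ).Adj α v) (hne : u ≠ v) (hz : z ∈ Z[α]) :
    ∃ a ∈ Z[u], ∃ c ∈ Z[v], a * c = z := by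
  haveI := (h.s3 α).fin
  have key : Z[α] ≤ Z[u] ⊔ Z[v] := Z_le_iff.2 fun T hT => by
    obtain ⟨g, hg, rfl⟩ := (h.syl ha).exists_conj_eq hT
    rw [conj_inf, conj_G, conj_G, mem_G.1 hg]
    refine (h.oz_le_Z' (adj_of_G hg ha)).trans ?_
    obtain ⟨t, ht, hq⟩ := h.exists_out ha
    rcases h.three ha hb hne ht.1 ht.2 hq (adj_of_G hg ha) with e | e | e <;> rw [e]
    · exact le_sup_left
    · exact le_sup_right
    · rw [← h.conj_Z]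
      rintro _ ⟨c, hc, rfl⟩
      simpa [mul_assoc] using mul_mem (inv_mem (mem_sup_left (T := Z[v]) (h.comm_mem ha (h.Zp_le (h.pt hb hα) hb hc)
        ht.1 ht.2))) (mem_sup_right hc)
  exact (mem_sup_right_norm (norm_of_cent (((h.Zp_le (h.pt ha hα) ha).trans (h.ZQ α)).trans
    ((h.Z_cent α).trans (cent_anti (h.Zp_le (h.pt hb hα) hb)))))).1 (key hz)

theorem exists_crit_arc : ∃ w : ℤ → CosetVertex M₁ M₂, Arc w ∧ ¬ Pt (w 0) ∧ ¬ Z[w 0] ≤ Q[w 𝔟] := by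
  obtain ⟨α, α', c⟩ := h.exists_crit
  obtain ⟨w, hw, rfl, rfl⟩ := h.exists_arc_dist _ _ _ c.2
  have := h.b_pos
  exact ⟨w, hw, fun e => h.crit_not c ((h.Zp_le e (hw.adj' 1 0)).trans (h.ZQa hw _ _)), h.crit_not c⟩

theorem two_le : 2 ≤ 𝔟 := by
  obtain ⟨w, hw, hα, hc⟩ := h.exists_crit_arc
  refine not_lt.1 fun hb => ?_
  rw [show (𝔟 : ℤ) = 1 by have := h.b_pos; omega] at hc
  have ha := hw.adj 0 1
  generalize w 0 = α, w 1 = p at hα hc ha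
  have hp := h.pt ha hα
  obtain ⟨a, h1, h2⟩ := SetLike.not_le_iff_exists.1 hc
  obtain ⟨k, hk, hk'⟩ := (h.s3 p).exists_not_mem (h.syl ha.symm)
  have hb := adj_of_G hk ha.symm
  have hne : k • α ≠ α := fun e => hk' ⟨hk, e⟩
  obtain ⟨ε, hε, e1, e2⟩ := h.third ha.symm hb hne.symm
  have h3 := h.conj_mem_Z k h1
  have h4 : k * a * k⁻¹ ∉ Q[p] := by rwa [conj_mem_Q_iff hk]
  generalize k * a * k⁻¹ = a', k • α = α' at h3 h4 hb hne e2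
  have g1 := h.Q_le ha (h.ZQ _ h1)
  have g2 := h.Q_le hb.symm (h.ZQ _ h3)
  have h5 : a * a' * (a * a') ∈ Q[p] := by
    refine chp_stab h.ch p ⟨mul_mem (mul_mem g1 g2) (mul_mem g1 g2), mem_cent.2 fun t ht => ?_⟩
    have c1 := h.comm_mem ha h1 (h.Q_le ha.symm ht) (Q_le_G 2 p ht)
    have c2 := h.comm_mem hb.symm h3 (h.Q_le hb ht) (Q_le_G 2 p ht)
    have c3 := mul_mem c2 c1
    have c4 : a * a' * t = a' * t * a'⁻¹ * t⁻¹ * (a * t * a⁻¹ * t⁻¹) * t * (a * a') := by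
      calc a * a' * t = a * (a' * t * a'⁻¹ * t⁻¹) * t * a' := by group
        _ = _ := by rw [← h.Zp_comm hp c2 g1]; group
    generalize a' * t * a'⁻¹ * t⁻¹ * (a * t * a⁻¹ * t⁻¹) = c at c3 c4
    have c5 := h.Zp_comm hp c3 (mul_mem g1 g2)
    generalize a * a' = b at c4 c5
    rw [mul_assoc b, c4, ← mul_assoc b, ← mul_assoc b, ← c5, mul_assoc c, c4, ← mul_assoc c, ← mul_assoc c,
      h.Z_sq c3, one_mul, mul_assoc]
  have s1 : a • α' = ε := h.swap ha.symm hb hε hne e1 e2 g1 (h.ZG' _ h1) h2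
  have s2 : a • ε = α' := h.swap ha.symm hε hb e1 hne e2.symm g1 (h.ZG' _ h1) h2
  have s3 : a' • α = ε := h.swap hb ha.symm hε hne.symm e2 e1 g2 (h.ZG' _ h3) h4
  have := mem_G.1 (h.Q_le ha.symm h5)
  rw [mul_smul, mul_smul a a' α, s3, s2, mul_smul, mem_G.1 (h.ZG' _ h3), s1] at this
  exact e1 this

end S3Pt

end Cfsg.Lib.Amalgam
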